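import Cfsg.Agent.VL.Two
import Cfsg.Agent.HKK.LieG
import Cfsg.Agent.S4206

/-!
Vaughan-Lee's theorem, part 5: the lower central Lie ring of a `p`-group.
-/

set_option autoImplicit false
set_option linter.style.haveILetI false
set_option linter.unusedVariables false

namespace Cfsg.Agent.VL

open Subgroup Cfsg.Agent.HKK
open scoped DirectSum commutatorElement

section gr

variable {G : Type*} [Group G] {F : ℕ → Subgroup G} [HF : Fact (NS F)]

/-- components -/
noncomputable def pr (n : ℕ) : LR F →+ Vq F n := DFinsupp.evalAddMonoidHom n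

lemma pr_ofV (n : ℕ) (v : Vq F n) : pr n (ofV n v) = v := DirectSum.of_eq_same n v

lemma pr_ofV_ne {n m : ℕ} (h : m ≠ n) (v : Vq F m) : pr n (ofV m v) = 0 := DirectSum.of_eq_of_ne m n v (Ne.symm h)

variable (F)

/-- the graded subgroup of a subgroup -/
noncomputable def gr (C : Subgroup G) (n : ℕ) : AddSubgroup (LR F) :=
  AddSubgroup.closure {t | ∃ i, n ≤ i ∧ ∃ c : F i, (c : G) ∈ C ∧ el i c = t}

/-- the homogeneous part -/
noncomputable def E (C : Subgroup G) (n : ℕ) : AddSubgroup (LR F) where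
  carrier := {t | ∃ c : F n, (c : G) ∈ C ∧ el n c = t}
  add_mem' := by
    rintro _ _ ⟨a, ha, rfl⟩ ⟨b, hb, rfl⟩
    exact ⟨a * b, mul_mem ha hb, el_mul a b⟩
  zero_mem' := ⟨1, one_mem C, el_one⟩
  neg_mem' := by
    rintro _ ⟨a, ha, rfl⟩
    exact ⟨a⁻¹, inv_mem ha, el_inv a⟩

variable {F}

lemma el_mem_gr {C : Subgroup G} {n i : ℕ} (h : n ≤ i) {c : F i} (hc : (c : G) ∈ C) : el i c ∈ gr F C n :=
  AddSubgroup.subset_closure ⟨i, h, c, hc, rfl⟩

lemma gr_le {C : Subgroup G} {n : ℕ} {K : AddSubgroup (LR F)} (h : ∀ i, n ≤ i → ∀ c : F i, (c : G) ∈ C → el i c ∈ K) :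
    gr F C n ≤ K := by
  unfold gr
  rw [AddSubgroup.closure_le]
  rintro _ ⟨i, hi, c, hc, rfl⟩
  exact h i hi c hc

lemma gr_succ (C : Subgroup G) (n : ℕ) : gr F C n = gr F C (n + 1) ⊔ E F C n := by
  apply le_antisymm
  · apply gr_le
    intro i hi c hc
    rcases Nat.eq_or_lt_of_le hi with rfl | h
    · exact AddSubgroup.mem_sup_right ⟨c, hc, rfl⟩
    · exact AddSubgroup.mem_sup_left (el_mem_gr h hc)
  · apply sup_le
    · exact gr_le fun i hi c hc => el_mem_gr (by omega) hc
    · rintro _ ⟨c, hc, rfl⟩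
      exact el_mem_gr le_rfl hc

lemma pr_gr {C : Subgroup G} {n : ℕ} {x : LR F} (hx : x ∈ gr F C (n + 1)) : pr n x = 0 := by
  have : gr F C (n + 1) ≤ (pr (F := F) n).ker := by
    apply gr_le
    intro i hi c _
    exact pr_ofV_ne (by omega) _
  exact this hx

lemma gr_inf (C : Subgroup G) (n : ℕ) : gr F C (n + 1) ⊓ E F C n = ⊥ := by
  rw [eq_bot_iff]
  rintro x ⟨h1, c, hc, rfl⟩
  have h2 := pr_gr h1
  unfold el at h2 ⊢
  rw [pr_ofV] at h2
  rw [h2, map_zero]
  exact zero_mem _

lemma card_E (C : Subgroup G) (n : ℕ) : Nat.card (E F C n) = (C ⊓ F (n + 1)).relIndex (C ⊓ F n) := by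
  let φ : (C ⊓ F n : Subgroup G) →* Multiplicative (LR F) :=
    { toFun := fun c => Multiplicative.ofAdd (el n ⟨c, c.2.2⟩)
      map_one' := by
        rw [← ofAdd_zero]; exact congrArg Multiplicative.ofAdd (el_one (F := F) (i := n))
      map_mul' := fun a b => by
        rw [← ofAdd_add]; exact congrArg Multiplicative.ofAdd (el_mul (F := F) (i := n) ⟨a, a.2.2⟩ ⟨b, b.2.2⟩) }
  have h1 : φ.ker = (C ⊓ F (n + 1)).subgroupOf (C ⊓ F n) := by
    ext c
    rw [MonoidHom.mem_ker, mem_subgroupOf]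
    have : φ c = 1 ↔ el n (⟨c, c.2.2⟩ : F n) = 0 := Iff.rfl
    rw [this, el_eq_zero]
    exact ⟨fun h => ⟨c.2.1, h⟩, fun h => h.2⟩
  have h2 := Subgroup.index_ker φ
  rw [h1] at h2
  unfold relIndex
  rw [h2]
  apply Nat.card_congr
  refine ⟨fun x => ⟨Multiplicative.ofAdd x.1, ?_⟩, fun x => ⟨Multiplicative.toAdd x.1, ?_⟩, fun x => rfl, fun x => rfl⟩
  · obtain ⟨c, hc, h⟩ := x.2
    exact ⟨⟨c, hc, c.2⟩, congrArg Multiplicative.ofAdd h⟩
  · obtain ⟨c, h⟩ := x.2
    exact ⟨⟨c, c.2.2⟩, c.2.1, congrArg Multiplicative.toAdd h⟩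

lemma card_gr {N : ℕ} (hN : F N = ⊥) (C : Subgroup G) : ∀ m n, m + n = N → Nat.card (gr F C n) = Nat.card (C ⊓ F n : Subgroup G) := by
  intro m
  induction m with
  | zero =>
    intro n hn
    have : n = N := by omega
    subst this
    have h1 : gr F C n = ⊥ := by
      rw [eq_bot_iff]
      apply gr_le
      intro i hi c hc
      have h2 : (c : G) ∈ F n := HF.out.le hi c.2
      rw [hN, mem_bot] at h2
      have h3 : c = 1 := Subtype.ext h2
      rw [h3, el_one]
      exact zero_mem _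
    rw [h1, hN, inf_bot_eq, AddSubgroup.card_bot, Subgroup.card_bot]
  | succ m ih =>
    intro n hn
    have h1 := ih (n + 1) (by omega)
    have h2 : Nat.card (gr F C n) = Nat.card (gr F C (n + 1)) * Nat.card (E F C n) := by
      have h3 := AddSubgroup.relIndex_mul_relIndex (⊥ : AddSubgroup (LR F)) (gr F C (n + 1)) (gr F C n) bot_le
        (by rw [gr_succ C n]; exact le_sup_left)
      rw [AddSubgroup.relIndex_bot_left, AddSubgroup.relIndex_bot_left] at h3
      have h4 : (gr F C (n + 1)).relIndex (gr F C n) = Nat.card (E F C n) := by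
        rw [gr_succ C n, relIndex_sup_Im, ← AddSubgroup.inf_relIndex_right, gr_inf, AddSubgroup.relIndex_bot_left]
      rw [← h3, h4]
    have h5 : Nat.card (C ⊓ F (n + 1) : Subgroup G) * (C ⊓ F (n + 1)).relIndex (C ⊓ F n) = Nat.card (C ⊓ F n : Subgroup G) := by
      have h6 := Subgroup.relIndex_mul_relIndex (⊥ : Subgroup G) (C ⊓ F (n + 1)) (C ⊓ F n) bot_le (inf_le_inf_left _ (HF.out.anti n))
      rwa [Subgroup.relIndex_bot_left, Subgroup.relIndex_bot_left] at h6
    rw [h2, h1, card_E, h5]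

lemma gr_top (h0 : F 0 = ⊤) : gr F ⊤ 0 = ⊤ := by
  rw [eq_top_iff]
  intro x _
  induction x using el_ind with
  | h0 => exact zero_mem _
  | hof i x => exact el_mem_gr (Nat.zero_le _) (mem_top _)
  | hadd a b ha hb => exact add_mem (ha trivial) (hb trivial)

end gr

variable {G : Type*} [Group G] [Finite G]

/-- the lower central series -/
abbrev LC (G : Type*) [Group G] : ℕ → Subgroup G := fun n => (⊤ : Subgroup G).lowerCentralSeries n

lemma NS_lcs : NS (LC G) where
  normal := fun i => inferInstance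
  anti := fun i => Subgroup.lowerCentralSeries_antitone _ (Nat.le_succ i)
  comm := fun i j => Cfsg.Agent.S4206.result (fun i => (⊤ : Subgroup G).lowerCentralSeries i) (fun i => inferInstance)
        (fun i => Subgroup.lowerCentralSeries_antitone _ (Nat.le_succ i)) ⊤ (fun i => le_rfl) i j

instance factNS : Fact (NS (LC G)) := ⟨NS_lcs⟩

/-- elements of degree `i + 1` -/
lemma el_succ_mem {K : AddSubgroup (LR (LC G))} (i : ℕ) (h : ∀ (g : LC G i) (x : LC G 0), ⁅el i g, el 0 x⁆ ∈ K)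
    (c : LC G (i + 1)) : el (i + 1) c ∈ K := by
  let T : Subgroup G :=
    { carrier := {x | ∃ hx : x ∈ LC G (i + 1), el (i + 1) ⟨x, hx⟩ ∈ K}
      mul_mem' := by
        rintro a b ⟨ha, ha'⟩ ⟨hb, hb'⟩
        refine ⟨mul_mem ha hb, ?_⟩
        have : (⟨a * b, mul_mem ha hb⟩ : LC G (i + 1)) = ⟨a, ha⟩ * ⟨b, hb⟩ := rfl
        rw [this, el_mul]
        exact add_mem ha' hb'
      one_mem' := by
        refine ⟨one_mem _, ?_⟩
        have : (⟨1, one_mem _⟩ : LC G (i + 1)) = 1 := rfl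
        rw [this, el_one]; exact zero_mem _
      inv_mem' := by
        rintro a ⟨ha, ha'⟩
        refine ⟨inv_mem ha, ?_⟩
        have : (⟨a⁻¹, inv_mem ha⟩ : LC G (i + 1)) = ⟨a, ha⟩⁻¹ := rfl
        rw [this, el_inv]
        exact neg_mem ha' }
  have hT : LC G (i + 1) ≤ T := by
    show ⁅LC G i, (⊤ : Subgroup G)⁆ ≤ T
    rw [commutator_le]
    intro g hg x hx
    refine ⟨commutator_mem_commutator hg hx, ?_⟩
    have h1 := h ⟨g, hg⟩ ⟨x, hx⟩
    rw [lie_def, brL_el i 0 (i + 1) rfl] at h1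
    exact h1
  obtain ⟨hc, h2⟩ := hT c.2
  exact h2

theorem main {p : ℕ} [Fact p.Prime] (hG : IsPGroup p G) (b : ℕ)
    (hb : ∀ x : G, (Subgroup.centralizer ({x} : Set G)).index ≤ p ^ b) : Nat.card (commutator G) ≤ p ^ (b * (b + 1) / 2) := by
  have hp : p.Prime := Fact.out
  obtain ⟨k, hk⟩ := (IsPGroup.iff_card).1 hG
  haveI := hG.isNilpotent
  obtain ⟨N, hN⟩ := Subgroup.nilpotent_iff_lowerCentralSeries.1 (inferInstance : Group.IsNilpotent G)
  have h0 : LC G 0 = ⊤ := rfl
  have hNb : LC G N = ⊥ := hN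
  have hcard : Nat.card (LR (LC G)) = p ^ k := by
    have h1 := card_gr hNb ⊤ N 0 (by omega)
    rw [gr_top h0, h0, inf_top_eq, Subgroup.card_top, AddSubgroup.card_top] at h1
    rw [h1, hk]
  haveI hfin : Finite (LR (LC G)) := Nat.finite_of_card_ne_zero (by rw [hcard]; exact pow_ne_zero _ hp.ne_zero)
  have H : Hyp (ofV (F := LC G) 0) p :=
    { prime := hp
      card := ⟨k, hcard⟩
      gen := by
        intro X hX1 hX2
        rw [eq_top_iff, ← gr_top h0]
        apply gr_le
        have key : ∀ i : ℕ, ∀ c : LC G i, el i c ∈ X := by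
          intro i
          induction i with
          | zero => intro c; exact hX1 _
          | succ i ih =>
            intro c
            apply el_succ_mem i _ c
            intro g x
            rw [← lie_skew]
            exact neg_mem (hX2 (mkv 0 x) _ (ih g))
        intro i _ c _
        exact key i c
      nil := by
        refine ⟨gr (LC G) ⊤, gr_top h0, ?_, N, ?_⟩
        · intro n v l hl
          obtain ⟨g, rfl⟩ := mkv_surj v
          have : gr (LC G) ⊤ n ≤ (gr (LC G) ⊤ (n + 1)).comap (AddMonoidHom.mk' (fun l : LR (LC G) => ⁅ofV 0 (mkv 0 g), l⁆) (fun a b => lie_add _ a b)) := by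
            apply gr_le
            intro i hi c hc
            rw [AddSubgroup.mem_comap]
            show ⁅el 0 g, el i c⁆ ∈ _
            rw [lie_def, brL_el 0 i (0 + i + 1) rfl]
            exact el_mem_gr (by omega) (mem_top _)
          exact this hl
        · rw [← AddSubgroup.card_eq_one, card_gr hNb ⊤ 0 N (by omega), hNb, inf_bot_eq, Subgroup.card_bot] }
  have hVf : Finite (Vq (LC G) 0) := Finite.of_injective _ (ofV_inj (F := LC G) 0)
  obtain ⟨m, hV⟩ : ∃ m, Nat.card (Vq (LC G) 0) = p ^ m := by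
    have h1 : Nat.card (Vq (LC G) 0) = Nat.card (ofV (F := LC G) 0).range :=
      Nat.card_congr (AddMonoidHom.ofInjective (ofV_inj (F := LC G) 0)).toEquiv
    rw [h1]
    exact H.card_sub _
  have hIm : ∀ x : Vq (LC G) 0, Nat.card (Im (ofV 0 x)) ≤ p ^ b := by
    intro x
    obtain ⟨g, rfl⟩ := mkv_surj x
    set f : LR (LC G) →+ LR (LC G) := AddMonoidHom.mk' (fun l : LR (LC G) => ⁅ofV 0 (mkv 0 g), l⁆) (fun a b => lie_add _ a b) with hf
    have h1 : Nat.card f.ker * Nat.card f.range = Nat.card (LR (LC G)) := by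
      rw [← AddSubgroup.index_ker, AddSubgroup.card_mul_index]
    have h2 : gr (LC G) (centralizer {(g : G)}) 0 ≤ f.ker := by
      apply gr_le
      intro i _ c hc
      show ⁅el 0 g, el i c⁆ = 0
      rw [lie_def, brL_el 0 i (0 + i + 1) rfl, el_eq_zero]
      rw [mem_centralizer_singleton_iff] at hc
      have : ⁅(g : G), (c : G)⁆ = 1 := by
        rw [commutatorElement_eq_one_iff_mul_comm]; exact hc.symm
      show ⁅(g : G), (c : G)⁆ ∈ _
      rw [this]; exact one_mem _
    have h3 : Nat.card (centralizer {(g : G)}) ≤ Nat.card f.ker := by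
      have h4 := card_gr hNb (centralizer {(g : G)}) N 0 (by omega)
      have h5 : (centralizer {(g : G)} ⊓ LC G 0 : Subgroup G) = centralizer {(g : G)} := inf_top_eq _
      rw [h5] at h4
      rw [← h4]
      exact Nat.card_mono (Set.toFinite _) h2
    have h5 := Subgroup.card_mul_index (centralizer {(g : G)})
    rw [hk, ← hcard, ← h1] at h5
    have h6 : Nat.card (centralizer {(g : G)}) * Nat.card f.range ≤ Nat.card (centralizer {(g : G)}) * (centralizer {(g : G)}).index := by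
      rw [h5]
      exact Nat.mul_le_mul_right _ h3
    exact (Nat.le_of_mul_le_mul_left h6 Nat.card_pos).trans (hb g)
  have hfinal : Nat.card (R (ofV (F := LC G) 0) Set.univ) ≤ p ^ (b * (b + 1) / 2) := by
    by_cases h2 : p = 2
    · subst h2
      refine H.main2 hV hIm (ofV 1).range (ofV 2).range ?_ ?_ ?_
      · rw [eq_bot_iff]
        rintro _ ⟨⟨v, rfl⟩, w, hw⟩
        have h3 := congrArg (pr (F := LC G) 1) hw
        rw [pr_ofV, pr_ofV_ne (by norm_num)] at h3
        rw [← h3, map_zero]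
        exact zero_mem _
      · intro x y
        obtain ⟨g, rfl⟩ := mkv_surj x
        obtain ⟨h, rfl⟩ := mkv_surj y
        refine ⟨mkv 1 ⟨⁅(g : G), (h : G)⁆, ?_⟩, ?_⟩
        · exact NS_lcs.comm_mem (i := 0) (j := 0) g.2 h.2
        · exact (brL_el 0 0 1 rfl g h).symm
      · intro x y z
        obtain ⟨g, rfl⟩ := mkv_surj x
        obtain ⟨h, rfl⟩ := mkv_surj y
        obtain ⟨u, rfl⟩ := mkv_surj z
        have m1 : ⁅(h : G), (u : G)⁆ ∈ LC G 1 := NS_lcs.comm_mem (i := 0) (j := 0) h.2 u.2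
        have e1 : ⁅ofV 0 (mkv 0 h), ofV 0 (mkv 0 u)⁆ = el (F := LC G) 1 ⟨⁅(h : G), (u : G)⁆, m1⟩ :=
          brL_el 0 0 1 rfl h u
        rw [e1]
        refine ⟨mkv 2 ⟨⁅(g : G), ⁅(h : G), (u : G)⁆⁆, NS_lcs.comm_mem (i := 0) (j := 1) g.2 m1⟩, ?_⟩
        exact (brL_el 0 1 2 rfl g (⟨⁅(h : G), (u : G)⁆, m1⟩ : LC G 1)).symm
    · exact H.easy hV (Or.inl h2) hIm
  refine le_trans ?_ hfinal
  have h1 : Nat.card (commutator G) ≤ Nat.card (gr (LC G) ⊤ 1) := by
    by_cases hN1 : N = 0
    · have : Nat.card (commutator G) = 1 := by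
        have h2 : (⊤ : Subgroup G) = ⊥ := by
          rw [← hNb, hN1, h0]
        rw [Subgroup.card_eq_one, eq_bot_iff, ← h2]
        exact le_top
      rw [this]; exact Nat.card_pos
    · have h2 := card_gr hNb ⊤ (N - 1) 1 (by omega)
      rw [top_inf_eq] at h2
      have h3 : LC G 1 = commutator G := top_lowerCentralSeries_one
      rw [h3] at h2
      exact h2.ge
  refine h1.trans (Nat.card_mono (Set.toFinite _) (gr_le ?_))
  intro i hi c _
  obtain ⟨i, rfl⟩ : ∃ j, i = j + 1 := ⟨i - 1, by omega⟩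
  apply el_succ_mem i _ c
  intro g x
  exact lie_mem_R' (Set.mem_univ (mkv 0 x)) (el i g)

end Cfsg.Agent.VL
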