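import Mathlib

/-!
Vaughan-Lee's theorem, part 1: a Lie ring generated by the image of `ι : V →+ L`.
-/

set_option autoImplicit false
set_option linter.style.haveILetI false
set_option linter.unusedVariables false

namespace Cfsg.Agent.VL

section
variable {L : Type*} [LieRing L]

/-- the image of `ad x` -/
def Im (x : L) : AddSubgroup L := (AddMonoidHom.mk' (fun l : L => ⁅x, l⁆) (fun a b => lie_add x a b)).range

lemma mem_Im {x t : L} : t ∈ Im x ↔ ∃ l, ⁅x, l⁆ = t := Iff.rfl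

lemma lie_mem_Im (x l : L) : ⁅x, l⁆ ∈ Im x := ⟨l, rfl⟩

lemma lie_mem_Im' (x l : L) : ⁅l, x⁆ ∈ Im x := by
  rw [← lie_skew]; exact neg_mem (lie_mem_Im x l)

end

variable {L : Type*} [LieRing L] {V : Type*} [AddCommGroup V] (ι : V →+ L)

/-- `Σ_{z ∈ S} [z, L]` -/
def R (S : Set V) : AddSubgroup L := AddSubgroup.closure {t | ∃ z ∈ S, ∃ l : L, ⁅ι z, l⁆ = t}

variable {ι}

lemma lie_mem_R {S : Set V} {z : V} (hz : z ∈ S) (l : L) : ⁅ι z, l⁆ ∈ R ι S :=
  AddSubgroup.subset_closure ⟨z, hz, l, rfl⟩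

lemma lie_mem_R' {S : Set V} {z : V} (hz : z ∈ S) (l : L) : ⁅l, ι z⁆ ∈ R ι S := by
  rw [← lie_skew]; exact neg_mem (lie_mem_R hz l)

lemma R_le {S : Set V} {K : AddSubgroup L} (h : ∀ z ∈ S, ∀ l : L, ⁅ι z, l⁆ ∈ K) : R ι S ≤ K := by
  unfold R
  rw [AddSubgroup.closure_le]
  rintro _ ⟨z, hz, l, rfl⟩
  exact h z hz l

lemma R_mono {S T : Set V} (h : S ⊆ T) : R ι S ≤ R ι T := R_le fun z hz l => lie_mem_R (h hz) l

lemma Im_le_R {S : Set V} {z : V} (hz : z ∈ S) : Im (ι z) ≤ R ι S := by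
  rintro _ ⟨l, rfl⟩; exact lie_mem_R hz l

lemma R_insert (S : Set V) (y : V) : R ι (insert y S) = R ι S ⊔ Im (ι y) := by
  apply le_antisymm
  · apply R_le
    rintro z (rfl | hz) l
    · exact AddSubgroup.mem_sup_right (lie_mem_Im _ _)
    · exact AddSubgroup.mem_sup_left (lie_mem_R hz l)
  · exact sup_le (R_mono (Set.subset_insert _ _)) (Im_le_R (Set.mem_insert _ _))

lemma R_empty : R ι (∅ : Set V) = ⊥ := by
  rw [eq_bot_iff]
  exact R_le (fun z hz => absurd hz (Set.notMem_empty z))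

variable (ι)

/-- right normed words -/
def ev (w : List V) (l : L) : L := w.foldr (fun z a => ⁅ι z, a⁆) l

variable {ι}

@[simp] lemma ev_nil (l : L) : ev ι [] l = l := rfl

@[simp] lemma ev_cons (z : V) (w : List V) (l : L) : ev ι (z :: w) l = ⁅ι z, ev ι w l⁆ := rfl

lemma ev_append (w w' : List V) (l : L) : ev ι (w ++ w') l = ev ι w (ev ι w' l) := by
  unfold ev; rw [List.foldr_append]

lemma ev_add (w : List V) (a b : L) : ev ι w (a + b) = ev ι w a + ev ι w b := by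
  induction w with
  | nil => rfl
  | cons z w ih => rw [ev_cons, ih, lie_add]; rfl

lemma ev_sub (w : List V) (a b : L) : ev ι w (a - b) = ev ι w a - ev ι w b := by
  induction w with
  | nil => rfl
  | cons z w ih => rw [ev_cons, ih, lie_sub]; rfl

lemma ev_neg (w : List V) (a : L) : ev ι w (-a) = - ev ι w a := by
  induction w with
  | nil => rfl
  | cons z w ih => rw [ev_cons, ih, lie_neg]; rfl

lemma lie_ev_mem_R {S : Set V} {y : V} (hy : y ∈ S) (w : List V) (hw : ∀ z ∈ w, z ∈ S) :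
    ∀ a : L, ⁅a, ev ι w (ι y)⁆ ∈ R ι S := by
  induction w with
  | nil => intro a; exact lie_mem_R' hy a
  | cons z w ih =>
    intro a
    rw [ev_cons, leibniz_lie]
    exact add_mem (ih (fun z hz => hw z (List.mem_cons_of_mem _ hz)) _) (lie_mem_R (hw z (List.mem_cons_self ..)) _)

lemma rev_lem {S : Set V} (w : List V) (hw : ∀ z ∈ w, z ∈ S) :
    ∃ s : ℤ, (s = 1 ∨ s = -1) ∧ ∀ a x : L, ⁅a, ev ι w x⁆ - s • ⁅x, ev ι w.reverse a⁆ ∈ R ι S := by
  induction w with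
  | nil =>
    refine ⟨-1, Or.inr rfl, fun a x => ?_⟩
    have : ⁅a, ev ι [] x⁆ - (-1 : ℤ) • ⁅x, ev ι ([] : List V).reverse a⁆ = 0 := by
      rw [List.reverse_nil, ev_nil, ev_nil, neg_smul, one_smul, ← lie_skew a x]
      abel
    rw [this]; exact zero_mem _
  | cons z w ih =>
    obtain ⟨s, hs, h⟩ := ih (fun z hz => hw z (List.mem_cons_of_mem _ hz))
    refine ⟨-s, ?_, fun a x => ?_⟩
    · rcases hs with rfl | rfl
      · right; rfl
      · left; rfl
    · have h1 := h ⁅a, ι z⁆ x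
      have h2 : ⁅ι z, ⁅a, ev ι w x⁆⁆ ∈ R ι S := lie_mem_R (hw z (List.mem_cons_self ..)) _
      have h3 := add_mem h1 h2
      have h4 : ⁅a, ev ι (z :: w) x⁆ - (-s) • ⁅x, ev ι (z :: w).reverse a⁆ =
          ⁅⁅a, ι z⁆, ev ι w x⁆ - s • ⁅x, ev ι w.reverse ⁅a, ι z⁆⁆ + ⁅ι z, ⁅a, ev ι w x⁆⁆ := by
        have e1 : ev ι (z :: w).reverse a = ev ι w.reverse ⁅ι z, a⁆ := by
          rw [List.reverse_cons, ev_append]; rfl
        have e2 : ev ι w.reverse ⁅ι z, a⁆ = - ev ι w.reverse ⁅a, ι z⁆ := by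
          rw [← ev_neg, lie_skew]
        rw [e1, e2, ev_cons, leibniz_lie, lie_neg, neg_smul, smul_neg]
        abel
      rw [h4]; exact h3

variable (ι)

/-- the elements of `V` which are not known to be reduced by `y` -/
def B (S : Set V) (y : V) : AddSubgroup V where
  carrier := {x | ∀ w : List V, (∀ z ∈ w, z ∈ insert y S) → ⁅ι x, ev ι w (ι y)⁆ ∈ R ι S}
  add_mem' := by
    intro a b ha hb w hw
    rw [map_add, add_lie]; exact add_mem (ha w hw) (hb w hw)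
  zero_mem' := by
    intro w hw
    rw [map_zero, zero_lie]; exact zero_mem _
  neg_mem' := by
    intro a ha w hw
    rw [map_neg, neg_lie]; exact neg_mem (ha w hw)

variable {ι}

lemma mem_B {S : Set V} {y x : V} : x ∈ B ι S y ↔
    ∀ w : List V, (∀ z ∈ w, z ∈ insert y S) → ⁅ι x, ev ι w (ι y)⁆ ∈ R ι S := Iff.rfl

variable (ι)

/-- the standing hypotheses -/
structure Hyp (p : ℕ) : Prop where
  prime : p.Prime
  card : ∃ k, Nat.card L = p ^ k
  gen : ∀ X : AddSubgroup L, (∀ v, ι v ∈ X) → (∀ v, ∀ l ∈ X, ⁅ι v, l⁆ ∈ X) → X = ⊤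
  nil : ∃ Γ : ℕ → AddSubgroup L, Γ 0 = ⊤ ∧ (∀ n v, ∀ l ∈ Γ n, ⁅ι v, l⁆ ∈ Γ (n + 1)) ∧ ∃ N, Γ N = ⊥

variable {ι} {p : ℕ} (H : Hyp ι p)
include H

lemma Hyp.top (v : L) : v ∈ ι.range ⊔ R ι Set.univ := by
  have h1 : (ι.range ⊔ R ι Set.univ : AddSubgroup L) = ⊤ := H.gen _ (fun v => AddSubgroup.mem_sup_left ⟨v, rfl⟩)
    (fun v l _ => AddSubgroup.mem_sup_right (lie_mem_R (Set.mem_univ _) _))
  rw [h1]; trivial

lemma Hyp.gen_nil (A : AddSubgroup L) (S S'' : Set V) (hV : ∀ v, ι v ∈ A) (h1 : ∀ v, ∀ a ∈ A, ⁅ι v, a⁆ ∈ R ι S'')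
    (h2 : ∀ z ∈ S, ∀ a ∈ A, ⁅ι z, a⁆ ∈ A) (h3 : ∀ z ∈ S'', ∀ a ∈ A, ⁅ι z, a⁆ ∈ A ⊔ R ι S) :
    R ι Set.univ ≤ R ι S'' := by
  obtain ⟨Γ, hΓ0, hΓ, N, hN⟩ := H.nil
  have key : ∀ n, A ⊔ Γ n = ⊤ := by
    intro n
    induction n with
    | zero => rw [hΓ0]; exact sup_top_eq _
    | succ n ih =>
      have dec : ∀ l : L, ∃ a ∈ A, ∃ g ∈ Γ n, a + g = l := by
        intro l
        have : l ∈ A ⊔ Γ n := by rw [ih]; trivial
        exact AddSubgroup.mem_sup.1 this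
      have r1 : R ι S ≤ A ⊔ Γ (n + 1) := by
        apply R_le
        intro z hz l
        obtain ⟨a, ha, g, hg, rfl⟩ := dec l
        rw [lie_add]
        exact add_mem (AddSubgroup.mem_sup_left (h2 z hz a ha)) (AddSubgroup.mem_sup_right (hΓ n z g hg))
      have r2 : R ι S'' ≤ A ⊔ Γ (n + 1) := by
        apply R_le
        intro z hz l
        obtain ⟨a, ha, g, hg, rfl⟩ := dec l
        rw [lie_add]
        exact add_mem ((sup_le le_sup_left r1) (h3 z hz a ha)) (AddSubgroup.mem_sup_right (hΓ n z g hg))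
      have r3 : R ι Set.univ ≤ A ⊔ Γ (n + 1) := by
        apply R_le
        intro z hz l
        obtain ⟨a, ha, g, hg, rfl⟩ := dec l
        rw [lie_add]
        exact add_mem (r2 (h1 z a ha)) (AddSubgroup.mem_sup_right (hΓ n z g hg))
      rw [eq_top_iff]
      intro l _
      have h4 := H.top l
      have h5 : (ι.range ⊔ R ι Set.univ : AddSubgroup L) ≤ A ⊔ Γ (n + 1) := by
        apply sup_le _ r3
        rintro _ ⟨v, rfl⟩
        exact AddSubgroup.mem_sup_left (hV v)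
      exact h5 h4
  have hA : A = ⊤ := by
    have := key N
    rwa [hN, sup_bot_eq] at this
  apply R_le
  intro z _ l
  exact h1 z l (by rw [hA]; trivial)

omit H in
/-- words in `S` applied to `y`, an additive subgroup closed under `ad z`, `z ∈ S` -/
def M (ι : V →+ L) (S : Set V) (Y : Set V) : AddSubgroup L :=
  AddSubgroup.closure {t | ∃ w : List V, (∀ z ∈ w, z ∈ S) ∧ ∃ y ∈ Y, ev ι w (ι y) = t}

omit H in
lemma ev_mem_M {S Y : Set V} {w : List V} (hw : ∀ z ∈ w, z ∈ S) {y : V} (hy : y ∈ Y) : ev ι w (ι y) ∈ M ι S Y :=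
  AddSubgroup.subset_closure ⟨w, hw, y, hy, rfl⟩

omit H in
lemma lie_M {S Y : Set V} {x : L} {K : AddSubgroup L}
    (h : ∀ w : List V, (∀ z ∈ w, z ∈ S) → ∀ y ∈ Y, ⁅x, ev ι w (ι y)⁆ ∈ K) {a : L} (ha : a ∈ M ι S Y) : ⁅x, a⁆ ∈ K := by
  unfold M at ha
  induction ha using AddSubgroup.closure_induction with
  | mem t ht =>
    obtain ⟨w, hw, y, hy, rfl⟩ := ht
    exact h w hw y hy
  | zero => rw [lie_zero]; exact zero_mem _
  | add a b _ _ ha hb => rw [lie_add]; exact add_mem ha hb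
  | neg a _ ha => rw [lie_neg]; exact neg_mem ha

omit H in
lemma M_closed {S Y : Set V} {z : V} (hz : z ∈ S) {a : L} (ha : a ∈ M ι S Y) : ⁅ι z, a⁆ ∈ M ι S Y := by
  apply lie_M _ ha
  intro w hw y hy
  exact ev_mem_M (w := z :: w) (fun z' hz' => by
    rcases List.mem_cons.1 hz' with rfl | h
    · exact hz
    · exact hw _ h) hy

/-- if no `y` outside a proper subgroup reduces, everything lies in `R S` -/
lemma Hyp.le_of_null (S : Set V) (h : ∀ y : V, ∀ w : List V, (∀ z ∈ w, z ∈ S) → ∀ x : V, ⁅ι x, ev ι w (ι y)⁆ ∈ R ι S) :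
    R ι Set.univ ≤ R ι S := by
  apply H.gen_nil (M ι S Set.univ) S S
  · intro v
    exact ev_mem_M (w := []) (by simp) (Set.mem_univ v)
  · intro v a ha
    exact lie_M (fun w hw y _ => h y w hw v) ha
  · intro z hz a ha
    exact M_closed hz ha
  · intro z hz a ha
    exact AddSubgroup.mem_sup_left (M_closed hz ha)

/-- p-power of cardinalities -/
lemma Hyp.card_sub (K : AddSubgroup L) : ∃ k, Nat.card K = p ^ k := by
  obtain ⟨k, hk⟩ := H.card
  have h1 : Nat.card K ∣ p ^ k := hk ▸ AddSubgroup.card_addSubgroup_dvd_card K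
  obtain ⟨j, -, hj⟩ := (Nat.dvd_prime_pow H.prime).1 h1
  exact ⟨j, hj⟩

lemma Hyp.relIndex_pow (K K' : AddSubgroup L) : ∃ k, K.relIndex K' = p ^ k := by
  obtain ⟨k, hk⟩ := H.card_sub K'
  have h1 : K.relIndex K' ∣ p ^ k := hk ▸ AddSubgroup.relIndex_dvd_card K K'
  obtain ⟨j, -, hj⟩ := (Nat.dvd_prime_pow H.prime).1 h1
  exact ⟨j, hj⟩

lemma Hyp.relIndex_pos (K K' : AddSubgroup L) : 0 < K.relIndex K' := by
  obtain ⟨k, hk⟩ := H.relIndex_pow K K'
  rw [hk]; exact pow_pos H.prime.pos _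

/-- the drop lemma -/
lemma Hyp.drop {K K' J : AddSubgroup L} (hK : K ≤ K') {t : L} (h1 : t ∈ J) (h2 : t ∈ K') (h3 : t ∉ K) :
    p * K'.relIndex J ≤ K.relIndex J := by
  have e1 : K.relIndex (K' ⊓ J) * K'.relIndex J = (K ⊓ K').relIndex J := AddSubgroup.relIndex_inf_mul_relIndex K K' J
  rw [inf_eq_left.2 hK] at e1
  rw [← e1]
  apply Nat.mul_le_mul_right
  obtain ⟨k, hk⟩ := H.relIndex_pow K (K' ⊓ J)
  rw [hk]
  have : k ≠ 0 := by
    rintro rfl
    rw [pow_zero, AddSubgroup.relIndex_eq_one] at hk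
    exact h3 (hk ⟨h2, h1⟩)
  calc p = p ^ 1 := (pow_one p).symm
    _ ≤ p ^ k := Nat.pow_le_pow_right H.prime.pos (by omega)

lemma Hyp.anti {K K' : AddSubgroup L} (hK : K ≤ K') (J : AddSubgroup L) : K'.relIndex J ≤ K.relIndex J :=
  AddSubgroup.relIndex_le_of_le_left hK (H.relIndex_pos _ _).ne'

lemma Hyp.mono {J J' : AddSubgroup L} (K : AddSubgroup L) (hJ : J ≤ J') : K.relIndex J ≤ K.relIndex J' :=
  AddSubgroup.relIndex_le_of_le_right hJ (H.relIndex_pos _ _).ne'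

omit H in
lemma relIndex_sup_Im (K J : AddSubgroup L) : K.relIndex (K ⊔ J) = K.relIndex J :=
  AddSubgroup.relIndex_sup_left J K

/-- shifts do not matter -/
lemma Hyp.shift {K : AddSubgroup L} {y : V} (hy : Im (ι y) ≤ K) (x : V) (i : ℤ) :
    K.relIndex (Im (ι x)) ≤ K.relIndex (Im (ι (x + i • y))) := by
  rw [← relIndex_sup_Im K (Im (ι x)), ← relIndex_sup_Im K (Im (ι (x + i • y)))]
  apply H.mono
  apply sup_le le_sup_left
  rintro _ ⟨l, rfl⟩
  show ⁅ι x, l⁆ ∈ _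
  have h1 : ⁅ι x, l⁆ = -(i • ⁅ι y, l⁆) + ⁅ι (x + i • y), l⁆ := by
    rw [map_add, map_zsmul, add_lie, zsmul_lie]; abel
  rw [h1]
  exact add_mem (AddSubgroup.mem_sup_left (neg_mem (zsmul_mem (hy (lie_mem_Im _ _)) i))) (AddSubgroup.mem_sup_right (lie_mem_Im _ _))

omit H in
/-- the cost of a step -/
lemma cost (S : Set V) (y : V) : (R ι S).relIndex (R ι Set.univ) =
    (R ι S).relIndex (Im (ι y)) * (R ι (insert y S)).relIndex (R ι Set.univ) := by
  rw [← AddSubgroup.relIndex_mul_relIndex (R ι S) (R ι (insert y S)) (R ι Set.univ) (R_mono (Set.subset_insert _ _)) (R_mono (Set.subset_univ _)),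
    R_insert, relIndex_sup_Im]

/-- one step reduces -/
lemma Hyp.step_red {S : Set V} {y x : V} (hx : x ∉ B ι S y) :
    p * (R ι (insert y S)).relIndex (Im (ι x)) ≤ (R ι S).relIndex (Im (ι x)) := by
  rw [mem_B] at hx
  push Not at hx
  obtain ⟨w, hw, h⟩ := hx
  exact H.drop (R_mono (Set.subset_insert _ _)) (lie_mem_Im _ _) (lie_ev_mem_R (Set.mem_insert _ _) w hw _) h

end Cfsg.Agent.VL
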