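import Cfsg.Agent.VL.Main

/-!
Vaughan-Lee's theorem, part 3: the induction.
-/

set_option autoImplicit false
set_option linter.style.haveILetI false
set_option linter.unusedVariables false

namespace Cfsg.Agent.VL

variable {L : Type*} [LieRing L] {V : Type*} [AddCommGroup V] {ι : V →+ L}

/-- a coprime multiple -/
lemma mem_of_coprime {K : AddSubgroup V} {x : V} {m n : ℤ} (h : IsCoprime m n) (hm : m • x ∈ K) (hn : n • x ∈ K) : x ∈ K := by
  obtain ⟨a, b, hab⟩ := h
  have : x = a • (m • x) + b • (n • x) := by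
    rw [smul_smul, smul_smul, ← add_smul, hab, one_smul]
  rw [this]
  exact add_mem (zsmul_mem hm a) (zsmul_mem hn b)

lemma pow_smul_zero {p k : ℕ} (hV : Nat.card V = p ^ k) (x : V) : ((p : ℤ) ^ k) • x = 0 := by
  have h1 : Nat.card V • x = 0 := card_nsmul_eq_zero'
  rw [hV] at h1
  have : ((p : ℤ) ^ k) = ((p ^ k : ℕ) : ℤ) := by push_cast; rfl
  rw [this, natCast_zsmul]; exact h1

lemma exists_max [Finite V] {k : ℕ} (hV : Nat.card V = 2 ^ k) {H0 : AddSubgroup V} (h : H0 ≠ ⊤) :
    ∃ Hm : AddSubgroup V, Hm ≠ ⊤ ∧ H0 ≤ Hm ∧ ∀ x ∉ Hm, ∀ x' ∉ Hm, x + x' ∈ Hm := by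
  obtain ⟨Hm, hc, hle⟩ := (eq_top_or_exists_le_coatom H0).resolve_left h
  have dec : ∀ y ∉ Hm, ∀ x : V, ∃ n : ℤ, x - n • y ∈ Hm := by
    intro y hy x
    have h1 : Hm < Hm ⊔ AddSubgroup.zmultiples y := by
      refine lt_of_le_of_ne le_sup_left fun h1 => hy ?_
      rw [h1]
      exact AddSubgroup.mem_sup_right (AddSubgroup.mem_zmultiples y)
    have h2 := hc.2 _ h1
    have h3 : x ∈ Hm ⊔ AddSubgroup.zmultiples y := by rw [h2]; trivial
    obtain ⟨b, hb, c, hc', rfl⟩ := AddSubgroup.mem_sup.1 h3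
    obtain ⟨n, rfl⟩ := AddSubgroup.mem_zmultiples_iff.1 hc'
    exact ⟨n, by rwa [add_sub_cancel_right]⟩
  have two : ∀ x ∉ Hm, (2 : ℤ) • x ∈ Hm := by
    intro x hx
    by_contra h2
    obtain ⟨n, hn⟩ := dec _ h2 x
    have e : x - n • ((2 : ℤ) • x) = (1 - 2 * n) • x := by
      rw [sub_smul, one_smul, mul_comm, mul_smul]
    rw [e] at hn
    have h4 : ((2 : ℤ) ^ k) • x ∈ Hm := by
      have := pow_smul_zero (p := 2) hV x
      rw [Nat.cast_ofNat] at this
      rw [this]; exact zero_mem _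
    refine hx (mem_of_coprime ?_ hn h4)
    apply IsCoprime.pow_right
    exact ⟨1, n, by ring⟩
  refine ⟨Hm, hc.1, hle, ?_⟩
  intro x hx x' hx'
  obtain ⟨n, hn⟩ := dec x hx x'
  have h2 := two x hx
  rcases Int.even_or_odd n with ⟨m, rfl⟩ | ⟨m, rfl⟩
  · exfalso
    apply hx'
    have := add_mem hn (zsmul_mem h2 m)
    have e : x' - (m + m) • x + m • ((2 : ℤ) • x) = x' := by
      rw [smul_smul, mul_two, sub_add_cancel]
    rwa [e] at this
  · have := add_mem hn (zsmul_mem h2 (m + 1))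
    have e : x' - (2 * m + 1) • x + (m + 1) • ((2 : ℤ) • x) = x + x' := by
      rw [smul_smul, add_smul, one_smul, add_mul, add_smul, one_mul, mul_comm m 2, two_smul ℤ x]
      abel
    rwa [e] at this

lemma ev_zero_of_class2 (h : ∀ x y z : V, ⁅ι x, ⁅ι y, ι z⁆⁆ = 0) (y : V) (w : List V) : ∀ z z' : V, ev ι (z :: z' :: w) (ι y) = 0 := by
  induction w with
  | nil => intro z z'; exact h z z' y
  | cons u w ih =>
    intro z z'
    rw [ev_cons, ih z' u, lie_zero]

variable {p : ℕ} (H : Hyp ι p)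
include H

lemma Hyp.relIndex_one {K K' : AddSubgroup L} (h : K' ≤ K) (n : ℕ) : K.relIndex K' ≤ p ^ n := by
  rw [AddSubgroup.relIndex_eq_one.2 h]
  exact Nat.one_le_pow _ _ H.prime.pos

/-- the main induction -/
theorem Hyp.claim [Finite V] {k : ℕ} (hV : Nat.card V = p ^ k) {δ : ℕ}
    (hδ : p ≠ 2 ∨ (∀ x y z : V, ⁅ι x, ⁅ι y, ι z⁆⁆ = 0) ∨ 1 ≤ δ) :
    ∀ c : ℕ, ∀ S : Set V, ∀ H0 : AddSubgroup V, H0 ≠ ⊤ → (∀ x ∉ H0, (R ι S).relIndex (Im (ι x)) ≤ p ^ c) →
      (R ι S).relIndex (R ι Set.univ) ≤ p ^ (c * (c + 1) / 2 + δ) := by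
  intro c
  induction c with
  | zero =>
    intro S H0 hH0 h
    apply H.relIndex_one
    apply R_le
    intro z _ l
    have h1 : ∀ x ∉ H0, ∀ l, ⁅ι x, l⁆ ∈ R ι S := by
      intro x hx l
      have h2 := h x hx
      rw [pow_zero] at h2
      have h3 : (R ι S).relIndex (Im (ι x)) = 1 := le_antisymm h2 (H.relIndex_pos _ _)
      rw [AddSubgroup.relIndex_eq_one] at h3
      exact h3 (lie_mem_Im _ _)
    by_cases hz : z ∈ H0
    · obtain ⟨e, he⟩ := exists_notMem hH0
      have h3 := sub_mem (h1 (z + e) (add_notMem hz he) l) (h1 e he l)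
      rwa [map_add, add_lie, add_sub_cancel_right] at h3
    · exact h1 z hz l
  | succ c ih =>
    intro S H0 hH0 h
    by_cases hA : ∀ y ∉ H0, B ι S y = ⊤
    · apply H.relIndex_one
      apply H.le_of_null
      intro y w hw x
      refine extend_out hH0 (fun y hy x => ?_) y x
      exact f1 (by rw [hA y hy]; trivial) hw
    by_cases hB : ∃ y ∉ H0, ∃ H' : AddSubgroup V, H' ≠ ⊤ ∧ ∀ x ∉ H', ∃ i : ℤ, x + i • y ∉ H0 ∧ x + i • y ∉ B ι S y
    · obtain ⟨y, hy, H', hH', hx⟩ := hB
      have h1 := ih (insert y S) H' hH' (by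
        intro x hxH
        obtain ⟨i, hi1, hi2⟩ := hx x hxH
        refine (H.shift (Im_le_R (Set.mem_insert _ _)) x i).trans ?_
        have h2 := H.step_red hi2
        have h3 := h _ hi1
        rw [pow_succ', ] at h3
        exact Nat.le_of_mul_le_mul_left (h2.trans h3) H.prime.pos)
      rw [cost S y]
      refine (Nat.mul_le_mul (h y hy) h1).trans ?_
      rw [← pow_add]
      apply Nat.pow_le_pow_right H.prime.pos
      have e : (c + 1) * (c + 1 + 1) = c * (c + 1) + (c + 1) * 2 := by ring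
      rw [e, Nat.add_mul_div_right _ _ (by norm_num)]
      omega
    push Not at hB
    have hT : ∀ y ∉ H0, B ι S y ≠ ⊤ → Tr ι S y := by
      intro y hy hBy
      apply tr_of hy hBy
      intro H' hH'
      obtain ⟨x, hx, h2⟩ := hB y hy H' hH'
      refine ⟨x, hx, fun i => ?_⟩
      by_cases h3 : x + i • y ∈ H0
      · exact Or.inl h3
      · exact Or.inr (h2 i h3)
    push Not at hA
    rcases hδ with hp | hcl | hd
    · exfalso
      obtain ⟨y, hy, hBy⟩ := hA
      have ht := hT y hy hBy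
      apply ht.nmem
      have h2 := ht.two
      rw [← two_zsmul] at h2
      have h4 : ((p : ℤ) ^ k) • y ∈ B ι S y := by
        rw [pow_smul_zero hV y]; exact zero_mem _
      refine mem_of_coprime ?_ h2 h4
      apply IsCoprime.pow_right
      rw [Int.isCoprime_iff_gcd_eq_one]
      have : Nat.Coprime 2 p := (Nat.coprime_primes Nat.prime_two H.prime).2 (Ne.symm hp)
      exact_mod_cast this
    · exfalso
      obtain ⟨y, hy, hBy⟩ := hA
      have ht := hT y hy hBy
      apply ht.nmem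
      intro w hw
      rcases w with _ | ⟨z, _ | ⟨z', w⟩⟩
      · rw [ev_nil, lie_self]; exact zero_mem _
      · rw [ev_cons, ev_nil, hcl]; exact zero_mem _
      · rw [ev_zero_of_class2 hcl, lie_zero]; exact zero_mem _
    · by_cases hp : p = 2
      · subst hp
        obtain ⟨Hm, hm, hle, hidx⟩ := exists_max hV hH0
        obtain ⟨e, he, e', he', hR⟩ := H.two_el (S := S) hm hidx (fun y hy => hT y (fun h => hy (hle h)))
        rw [cost S e, cost (insert e S) e', AddSubgroup.relIndex_eq_one.2 hR, mul_one]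
        have h1 := h e (fun h => he (hle h))
        have h2 := h e' (fun h => he' (hle h))
        have h3 : (R ι (insert e S)).relIndex (Im (ι e')) ≤ 2 ^ (c + 1) := (H.anti (R_mono (Set.subset_insert _ _)) _).trans h2
        refine (Nat.mul_le_mul h1 h3).trans ?_
        rw [← pow_add]
        apply Nat.pow_le_pow_right (by norm_num)
        have e0 : (c + 1) * (c + 1 + 1) = c * (c + 1) + (c + 1) * 2 := by ring
        rw [e0, Nat.add_mul_div_right _ _ (by norm_num)]
        have e1 : c ≤ c * (c + 1) / 2 + 0 ∨ True := Or.inr trivial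
        rcases c with _ | _ | c
        · omega
        · omega
        · have : (c + 1 + 1) * 2 ≤ (c + 1 + 1) * (c + 1 + 1 + 1) := Nat.mul_le_mul_left _ (by omega)
          have h5 : (c + 1 + 1) ≤ (c + 1 + 1) * (c + 1 + 1 + 1) / 2 := by
            rw [Nat.le_div_iff_mul_le (by norm_num)]; exact this
          omega
      · exfalso
        obtain ⟨y, hy, hBy⟩ := hA
        have ht := hT y hy hBy
        apply ht.nmem
        have h2 := ht.two
        rw [← two_zsmul] at h2
        have h4 : ((p : ℤ) ^ k) • y ∈ B ι S y := by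
          rw [pow_smul_zero hV y]; exact zero_mem _
        refine mem_of_coprime ?_ h2 h4
        apply IsCoprime.pow_right
        rw [Int.isCoprime_iff_gcd_eq_one]
        have : Nat.Coprime 2 p := (Nat.coprime_primes Nat.prime_two H.prime).2 (Ne.symm hp)
        exact_mod_cast this

end Cfsg.Agent.VL
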