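import Cfsg.Agent.VL.Base

/-!
Vaughan-Lee's theorem, part 2: the main induction.
-/

set_option autoImplicit false
set_option linter.style.haveILetI false
set_option linter.unusedVariables false

namespace Cfsg.Agent.VL

variable {L : Type*} [LieRing L] {V : Type*} [AddCommGroup V] {ι : V →+ L}

lemma add_notMem {H0 : AddSubgroup V} {y e : V} (hy : y ∈ H0) (he : e ∉ H0) : y + e ∉ H0 := by
  intro h
  exact he ((AddSubgroup.add_mem_cancel_left H0 hy).1 h)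

lemma exists_notMem {H0 : AddSubgroup V} (h : H0 ≠ ⊤) : ∃ e, e ∉ H0 := by
  by_contra hc
  push Not at hc
  exact h (eq_top_iff.2 fun x _ => hc x)

/-- brackets with all `y` from brackets with `y ∉ H0` -/
lemma extend_out {H0 : AddSubgroup V} (hH0 : H0 ≠ ⊤) {K : AddSubgroup L} {w : List V}
    (h : ∀ y ∉ H0, ∀ x : V, ⁅ι x, ev ι w (ι y)⁆ ∈ K) (y x : V) : ⁅ι x, ev ι w (ι y)⁆ ∈ K := by
  by_cases hy : y ∈ H0
  · obtain ⟨e, he⟩ := exists_notMem hH0
    have h1 := h (y + e) (add_notMem hy he) x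
    have h2 := h e he x
    have h3 := sub_mem h1 h2
    rw [map_add, ev_add, lie_add, add_sub_cancel_right] at h3
    exact h3
  · exact h y hy x

/-- the bad configuration -/
structure Tr (ι : V →+ L) (S : Set V) (y : V) : Prop where
  nmem : y ∉ B ι S y
  two : y + y ∈ B ι S y
  idx : ∀ x, x ∈ B ι S y ∨ x - y ∈ B ι S y

lemma tr_of {S : Set V} {H0 : AddSubgroup V} {y : V} (hy : y ∉ H0) (hB : B ι S y ≠ ⊤)
    (hno : ∀ H' : AddSubgroup V, H' ≠ ⊤ → ∃ x ∉ H', ∀ i : ℤ, x + i • y ∈ H0 ∨ x + i • y ∈ B ι S y) : Tr ι S y := by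
  obtain ⟨x, hx, h⟩ := hno _ hB
  have h0 : x ∈ H0 := by
    rcases h 0 with h | h
    · simpa using h
    · exact absurd (by simpa using h) hx
  have h1 : x + y ∈ B ι S y := by
    rcases h 1 with h | h
    · exact absurd (by simpa using h) (add_notMem h0 hy)
    · simpa using h
  have h2 : x - y ∈ B ι S y := by
    rcases h (-1) with h | h
    · rw [neg_smul, one_smul] at h
      exact absurd h (add_notMem h0 (fun h3 => hy (neg_mem_iff.1 h3)))
    · rw [neg_smul, one_smul, ← sub_eq_add_neg] at h; exact h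
  have hyB : y ∉ B ι S y := by
    intro h3
    apply hx
    have := sub_mem h1 h3
    rwa [add_sub_cancel_right] at this
  have h2y : y + y ∈ B ι S y := by
    have := sub_mem h1 h2
    have e : x + y - (x - y) = y + y := by abel
    rwa [e] at this
  refine ⟨hyB, h2y, ?_⟩
  have htop : B ι S y ⊔ AddSubgroup.zmultiples y = ⊤ := by
    by_contra hne
    obtain ⟨x', hx', h'⟩ := hno _ hne
    have k0 : x' ∉ B ι S y := fun h => hx' (AddSubgroup.mem_sup_left h)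
    have k1 : x' ∈ H0 := by
      rcases h' 0 with h | h
      · simpa using h
      · exact absurd (by simpa using h) k0
    rcases h' 1 with h | h
    · exact absurd (by simpa using h) (add_notMem k1 hy)
    · apply hx'
      have h4 : x' + y ∈ B ι S y ⊔ AddSubgroup.zmultiples y := AddSubgroup.mem_sup_left (by simpa using h)
      have h5 : y ∈ B ι S y ⊔ AddSubgroup.zmultiples y := AddSubgroup.mem_sup_right (AddSubgroup.mem_zmultiples y)
      have := sub_mem h4 h5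
      rwa [add_sub_cancel_right] at this
  intro z
  have hz : z ∈ B ι S y ⊔ AddSubgroup.zmultiples y := by rw [htop]; trivial
  obtain ⟨b, hb, c, hc, rfl⟩ := AddSubgroup.mem_sup.1 hz
  obtain ⟨n, rfl⟩ := AddSubgroup.mem_zmultiples_iff.1 hc
  rcases Int.even_or_odd n with ⟨m, rfl⟩ | ⟨m, rfl⟩
  · left
    have e : (m + m) • y = m • (y + y) := by rw [add_smul, smul_add]
    rw [e]
    exact add_mem hb (zsmul_mem h2y m)
  · right
    have e : b + (2 * m + 1) • y - y = b + m • (y + y) := by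
      rw [add_smul, one_smul, two_mul, add_smul, smul_add]; abel
    rw [e]
    exact add_mem hb (zsmul_mem h2y m)

/-- bad and not null -/
structure NN (ι : V →+ L) (S : Set V) (y : V) : Prop extends Tr ι S y where
  ex : ∃ w : List V, (∀ z ∈ w, z ∈ S) ∧ ∃ x, ⁅ι x, ev ι w (ι y)⁆ ∉ R ι S

lemma f1 {S : Set V} {y x : V} (hx : x ∈ B ι S y) {w : List V} (hw : ∀ z ∈ w, z ∈ S) : ⁅ι x, ev ι w (ι y)⁆ ∈ R ι S :=
  hx w (fun z hz => Set.mem_insert_of_mem _ (hw z hz))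

lemma NN.f2 {S : Set V} {y x : V} (h : NN ι S y) (hx : x ∉ B ι S y) {w : List V} (hw : ∀ z ∈ w, z ∈ S) :
    ⁅ι x, ev ι w (ι y)⁆ - ⁅ι y, ev ι w (ι y)⁆ ∈ R ι S := by
  have h1 := (h.idx x).resolve_left hx
  have h2 := f1 h1 hw
  rwa [map_sub, sub_lie] at h2

lemma NN.f3 {S : Set V} {y : V} (h : NN ι S y) {w : List V} (hw : ∀ z ∈ w, z ∈ S) :
    ⁅ι y, ev ι w (ι y)⁆ + ⁅ι y, ev ι w (ι y)⁆ ∈ R ι S := by
  have h2 := f1 h.two hw
  rwa [map_add, add_lie] at h2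

lemma NN.f4 {S : Set V} {y : V} (h : NN ι S y) : ∃ w : List V, (∀ z ∈ w, z ∈ S) ∧ ⁅ι y, ev ι w (ι y)⁆ ∉ R ι S := by
  obtain ⟨w, hw, x, hx⟩ := h.ex
  refine ⟨w, hw, fun h1 => hx ?_⟩
  by_cases hxB : x ∈ B ι S y
  · exact f1 hxB hw
  · have := add_mem (h.f2 hxB hw) h1
    rwa [sub_add_cancel] at this

lemma rev_sub {S : Set V} {w : List V} (hw : ∀ z ∈ w, z ∈ S) : ∀ z ∈ w.reverse, z ∈ S := fun z hz =>
  hw z (List.mem_reverse.1 hz)

lemma NN.sym {S : Set V} {y : V} (h : NN ι S y) {w : List V} (hw : ∀ z ∈ w, z ∈ S) :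
    ⁅ι y, ev ι w (ι y)⁆ - ⁅ι y, ev ι w.reverse (ι y)⁆ ∈ R ι S := by
  obtain ⟨s, hs, h1⟩ := rev_lem (ι := ι) w hw
  have h2 := h1 (ι y) (ι y)
  rcases hs with rfl | rfl
  · rwa [one_smul] at h2
  · rw [neg_smul, one_smul, sub_neg_eq_add] at h2
    have h3 := h.f3 (rev_sub hw)
    have := sub_mem h2 h3
    have e : ⁅ι y, ev ι w (ι y)⁆ + ⁅ι y, ev ι w.reverse (ι y)⁆ - (⁅ι y, ev ι w.reverse (ι y)⁆ + ⁅ι y, ev ι w.reverse (ι y)⁆)
      = ⁅ι y, ev ι w (ι y)⁆ - ⁅ι y, ev ι w.reverse (ι y)⁆ := by abel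
    rwa [e] at this

lemma NN.pair {S : Set V} {y y' : V} (h : NN ι S y) (h' : NN ι S y') (hy : y' ∉ B ι S y) :
    y ∉ B ι S y' ∧ ∀ w : List V, (∀ z ∈ w, z ∈ S) → ⁅ι y, ev ι w (ι y)⁆ - ⁅ι y', ev ι w (ι y')⁆ ∈ R ι S := by
  have hn : y ∉ B ι S y' := by
    intro h1
    obtain ⟨w, hw, h4⟩ := h.f4
    obtain ⟨s, hs, h2⟩ := rev_lem (ι := ι) w hw
    have h3 := h2 (ι y') (ι y)
    have h5 := zsmul_mem (f1 h1 (rev_sub hw)) s
    have h6 := add_mem h3 h5
    rw [sub_add_cancel] at h6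
    have h7 := sub_mem h6 (h.f2 hy hw)
    rw [sub_sub_cancel] at h7
    exact h4 h7
  refine ⟨hn, fun w hw => ?_⟩
  obtain ⟨s, hs, h2⟩ := rev_lem (ι := ι) w hw
  have k1 := h.f2 hy hw
  have k2 := h2 (ι y') (ι y)
  have k3 := h'.f2 hn (rev_sub hw)
  have k4 := h'.sym hw
  have k5 := h'.f3 hw
  generalize ⁅ι y, ev ι w (ι y)⁆ = t at *
  generalize ⁅ι y', ev ι w (ι y')⁆ = t' at *
  generalize ⁅ι y', ev ι w.reverse (ι y')⁆ = u' at *
  generalize ⁅ι y', ev ι w (ι y)⁆ = A at *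
  generalize ⁅ι y, ev ι w.reverse (ι y')⁆ = C at *
  rcases hs with rfl | rfl
  · rw [one_smul] at k2
    have := add_mem (sub_mem k2 k1) (sub_mem k3 k4)
    have e : A - C - (A - t) + (C - u' - (t' - u')) = t - t' := by abel
    rwa [e] at this
  · rw [neg_smul, one_smul, sub_neg_eq_add] at k2
    have := sub_mem (sub_mem (sub_mem k2 k1) (sub_mem k3 k4)) k5
    have e : A + C - (A - t) - (C - u' - (t' - u')) - (t' + t') = t - t' := by abel
    rwa [e] at this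

variable {p : ℕ} (H : Hyp ι p)
include H

/-- in the bad configuration two elements generate -/
lemma Hyp.two_el {S : Set V} {H0 : AddSubgroup V} (hH0 : H0 ≠ ⊤) (hidx : ∀ x ∉ H0, ∀ x' ∉ H0, x + x' ∈ H0)
    (hT : ∀ y ∉ H0, B ι S y ≠ ⊤ → Tr ι S y) :
    ∃ e ∉ H0, ∃ e' ∉ H0, R ι Set.univ ≤ R ι (insert e' (insert e S)) := by
  by_cases hnull : ∀ y ∉ H0, ∀ w : List V, (∀ z ∈ w, z ∈ S) → ∀ x, ⁅ι x, ev ι w (ι y)⁆ ∈ R ι S
  · obtain ⟨e, he⟩ := exists_notMem hH0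
    refine ⟨e, he, e, he, ?_⟩
    refine (H.le_of_null S ?_).trans (R_mono ((Set.subset_insert _ _).trans (Set.subset_insert _ _)))
    intro y w hw x
    exact extend_out hH0 (fun y hy x => hnull y hy w hw x) y x
  push Not at hnull
  obtain ⟨e, he, w0, hw0, x0, hx0⟩ := hnull
  have toNN : ∀ y ∉ H0, ∀ w : List V, (∀ z ∈ w, z ∈ S) → ∀ x, ⁅ι x, ev ι w (ι y)⁆ ∉ R ι S → NN ι S y := by
    intro y hy w hw x hx
    have hB : B ι S y ≠ ⊤ := by
      intro h
      apply hx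
      exact f1 (by rw [h]; trivial) hw
    exact ⟨hT y hy hB, w, hw, x, hx⟩
  have hNe : NN ι S e := toNN e he w0 hw0 x0 hx0
  -- choose e'
  obtain ⟨e', he', hNe', hee, hall⟩ : ∃ e', e' ∉ H0 ∧ NN ι S e' ∧ (e' = e ∨ (e ∈ B ι S e' ∧ e' ∈ B ι S e)) ∧
      ∀ y ∉ H0, NN ι S y → (∀ w : List V, (∀ z ∈ w, z ∈ S) → ⁅ι y, ev ι w (ι y)⁆ - ⁅ι e, ev ι w (ι e)⁆ ∈ R ι S) ∨
        (∀ w : List V, (∀ z ∈ w, z ∈ S) → ⁅ι y, ev ι w (ι y)⁆ - ⁅ι e', ev ι w (ι e')⁆ ∈ R ι S) := by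
    by_cases hc : ∀ y ∉ H0, NN ι S y → ∀ w : List V, (∀ z ∈ w, z ∈ S) → ⁅ι y, ev ι w (ι y)⁆ - ⁅ι e, ev ι w (ι e)⁆ ∈ R ι S
    · exact ⟨e, he, hNe, Or.inl rfl, fun y hy hN => Or.inl (hc y hy hN)⟩
    push Not at hc
    obtain ⟨b, hb, hNb, w1, hw1, hbe⟩ := hc
    have c1 : e ∈ B ι S b := by
      by_contra h
      exact hbe ((hNb.pair hNe h).2 w1 hw1)
    have c2 : b ∈ B ι S e := by
      by_contra h
      have := neg_mem ((hNe.pair hNb h).2 w1 hw1)
      rw [neg_sub] at this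
      exact hbe this
    refine ⟨b, hb, hNb, Or.inr ⟨c1, c2⟩, ?_⟩
    intro y hy hNy
    by_contra hcon
    push Not at hcon
    obtain ⟨⟨w2, hw2, k2⟩, w3, hw3, k3⟩ := hcon
    have d1 : e ∈ B ι S y := by
      by_contra h
      exact k2 ((hNy.pair hNe h).2 w2 hw2)
    have d2 : b ∈ B ι S y := by
      by_contra h
      exact k3 ((hNy.pair hNb h).2 w3 hw3)
    -- the sum
    have hv : e + b + y ∉ H0 := add_notMem (hidx e he b hb) hy
    have g1 : ∀ w : List V, (∀ z ∈ w, z ∈ S) → ⁅ι e, ev ι w (ι (e + b + y))⁆ - ⁅ι e, ev ι w (ι e)⁆ ∈ R ι S := by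
      intro w hw
      rw [map_add, map_add, ev_add, ev_add, lie_add, lie_add]
      have := add_mem (f1 c1 hw) (f1 d1 hw)
      have e1 : ⁅ι e, ev ι w (ι e)⁆ + ⁅ι e, ev ι w (ι b)⁆ + ⁅ι e, ev ι w (ι y)⁆ - ⁅ι e, ev ι w (ι e)⁆ =
        ⁅ι e, ev ι w (ι b)⁆ + ⁅ι e, ev ι w (ι y)⁆ := by abel
      rwa [e1]
    have g2 : ∀ w : List V, (∀ z ∈ w, z ∈ S) → ⁅ι b, ev ι w (ι (e + b + y))⁆ - ⁅ι b, ev ι w (ι b)⁆ ∈ R ι S := by
      intro w hw
      rw [map_add, map_add, ev_add, ev_add, lie_add, lie_add]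
      have := add_mem (f1 c2 hw) (f1 d2 hw)
      have e1 : ⁅ι b, ev ι w (ι e)⁆ + ⁅ι b, ev ι w (ι b)⁆ + ⁅ι b, ev ι w (ι y)⁆ - ⁅ι b, ev ι w (ι b)⁆ =
        ⁅ι b, ev ι w (ι e)⁆ + ⁅ι b, ev ι w (ι y)⁆ := by abel
      rwa [e1]
    obtain ⟨w4, hw4, k4⟩ := hNe.f4
    have m1 : ⁅ι e, ev ι w4 (ι (e + b + y))⁆ ∉ R ι S := by
      intro h
      apply k4
      have := sub_mem h (g1 w4 hw4)
      rwa [sub_sub_cancel] at this
    have hNv : NN ι S (e + b + y) := toNN _ hv w4 hw4 e m1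
    have n1 : e ∉ B ι S (e + b + y) := fun h => m1 (f1 h hw4)
    obtain ⟨w5, hw5, k5⟩ := hNb.f4
    have m2 : ⁅ι b, ev ι w5 (ι (e + b + y))⁆ ∉ R ι S := by
      intro h
      apply k5
      have := sub_mem h (g2 w5 hw5)
      rwa [sub_sub_cancel] at this
    have n2 : b ∉ B ι S (e + b + y) := fun h => m2 (f1 h hw5)
    have q1 := (hNv.pair hNe n1).2 w1 hw1
    have q2 := (hNv.pair hNb n2).2 w1 hw1
    apply hbe
    have := sub_mem q1 q2
    have e1 : ⁅ι (e + b + y), ev ι w1 (ι (e + b + y))⁆ - ⁅ι e, ev ι w1 (ι e)⁆ -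
      (⁅ι (e + b + y), ev ι w1 (ι (e + b + y))⁆ - ⁅ι b, ev ι w1 (ι b)⁆) = ⁅ι b, ev ι w1 (ι b)⁆ - ⁅ι e, ev ι w1 (ι e)⁆ := by abel
    rwa [e1] at this
  refine ⟨e, he, e', he', ?_⟩
  have hS1 : S ⊆ insert e' (insert e S) := (Set.subset_insert _ _).trans (Set.subset_insert _ _)
  have memE : ∀ l, ⁅ι e, l⁆ ∈ R ι (insert e' (insert e S)) := fun l =>
    lie_mem_R (Set.mem_insert_of_mem _ (Set.mem_insert _ _)) l
  have memE' : ∀ l, ⁅ι e', l⁆ ∈ R ι (insert e' (insert e S)) := fun l => lie_mem_R (Set.mem_insert _ _) l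
  have hR : R ι S ≤ R ι (insert e' (insert e S)) := R_mono hS1
  have hb : ∀ w : List V, (∀ z ∈ w, z ∈ S) → ∀ y x : V, ⁅ι x, ev ι w (ι y)⁆ ∈ R ι (insert e' (insert e S)) := by
    intro w hw
    apply extend_out hH0
    intro y hy x
    by_cases hx : ⁅ι x, ev ι w (ι y)⁆ ∈ R ι S
    · exact hR hx
    · have hN := toNN y hy w hw x hx
      have hxB : x ∉ B ι S y := fun h => hx (f1 h hw)
      have h1 := hN.f2 hxB hw
      rcases hall y hy hN with h2 | h2
      · have h3 := hR (add_mem h1 (h2 w hw))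
        have h4 := add_mem h3 (memE (ev ι w (ι e)))
        have e1 : ⁅ι x, ev ι w (ι y)⁆ - ⁅ι y, ev ι w (ι y)⁆ + (⁅ι y, ev ι w (ι y)⁆ - ⁅ι e, ev ι w (ι e)⁆) + ⁅ι e, ev ι w (ι e)⁆
          = ⁅ι x, ev ι w (ι y)⁆ := by abel
        rwa [e1] at h4
      · have h3 := hR (add_mem h1 (h2 w hw))
        have h4 := add_mem h3 (memE' (ev ι w (ι e')))
        have e1 : ⁅ι x, ev ι w (ι y)⁆ - ⁅ι y, ev ι w (ι y)⁆ + (⁅ι y, ev ι w (ι y)⁆ - ⁅ι e', ev ι w (ι e')⁆) + ⁅ι e', ev ι w (ι e')⁆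
          = ⁅ι x, ev ι w (ι y)⁆ := by abel
        rwa [e1] at h4
  -- the generating subgroup
  set A : AddSubgroup L := M ι S Set.univ ⊔ (M ι (insert e S) {e} ⊔ M ι (insert e' S) {e'}) with hA
  have ind : ∀ {K : AddSubgroup L} {x : L}, (∀ a ∈ M ι S Set.univ, ⁅x, a⁆ ∈ K) → (∀ a ∈ M ι (insert e S) {e}, ⁅x, a⁆ ∈ K) →
      (∀ a ∈ M ι (insert e' S) {e'}, ⁅x, a⁆ ∈ K) → ∀ a ∈ A, ⁅x, a⁆ ∈ K := by
    intro K x h1 h2 h3 a ha
    obtain ⟨a1, ha1, b, hb', rfl⟩ := AddSubgroup.mem_sup.1 ha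
    obtain ⟨a2, ha2, a3, ha3, rfl⟩ := AddSubgroup.mem_sup.1 hb'
    rw [lie_add, lie_add]
    exact add_mem (h1 _ ha1) (add_mem (h2 _ ha2) (h3 _ ha3))
  have l1 : M ι S Set.univ ≤ A := le_sup_left
  have l2 : M ι (insert e S) {e} ≤ A := le_sup_left.trans le_sup_right
  have l3 : M ι (insert e' S) {e'} ≤ A := le_sup_right.trans le_sup_right
  -- words of `f` against `B`
  have wB : ∀ f : V, NN ι S f → (∀ l, ⁅ι f, l⁆ ∈ R ι (insert e' (insert e S))) → ∀ v : V, ∀ a ∈ M ι (insert f S) {f},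
      ⁅ι v, a⁆ ∈ R ι (insert e' (insert e S)) := by
    intro f hf hmem v a ha
    apply lie_M _ ha
    rintro w hw y hy
    rw [Set.mem_singleton_iff] at hy
    subst hy
    rcases hf.idx v with h1 | h1
    · exact hR (h1 w hw)
    · have h2 := hR (h1 w hw)
      rw [map_sub, sub_lie] at h2
      have := add_mem h2 (hmem (ev ι w (ι y)))
      rwa [sub_add_cancel] at this
  -- `f` against words in `S`
  have wS : ∀ f : V, NN ι S f → ∀ a ∈ M ι S Set.univ, ⁅ι f, a⁆ ∈ M ι (insert f S) {f} ⊔ R ι S := by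
    intro f hf a ha
    apply lie_M _ ha
    intro w hw v _
    obtain ⟨s, hs, h2⟩ := rev_lem (ι := ι) w hw
    have h3 := h2 (ι f) (ι v)
    have h4 : ⁅ι v, ev ι w.reverse (ι f)⁆ ∈ M ι (insert f S) {f} ⊔ R ι S := by
      by_cases hv : v ∈ B ι S f
      · exact AddSubgroup.mem_sup_right (f1 hv (rev_sub hw))
      · have h5 := hf.f2 hv (rev_sub hw)
        have h6 : ⁅ι f, ev ι w.reverse (ι f)⁆ ∈ M ι (insert f S) {f} :=
          ev_mem_M (w := f :: w.reverse) (fun z hz => by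
            rcases List.mem_cons.1 hz with rfl | h
            · exact Set.mem_insert _ _
            · exact Set.mem_insert_of_mem _ (rev_sub hw z h)) (Set.mem_singleton _)
        have := add_mem (AddSubgroup.mem_sup_right (S := M ι (insert f S) {f}) h5) (AddSubgroup.mem_sup_left h6)
        rwa [sub_add_cancel] at this
    have := add_mem (AddSubgroup.mem_sup_right (S := M ι (insert f S) {f}) h3) (zsmul_mem h4 s)
    rwa [sub_add_cancel] at this
  -- `f` against words of `g`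
  have wG : ∀ f g : V, f ∈ B ι S g → ∀ a ∈ M ι (insert g S) {g}, ⁅ι f, a⁆ ∈ R ι S := by
    intro f g hfg a ha
    apply lie_M _ ha
    rintro w hw y hy
    rw [Set.mem_singleton_iff] at hy
    subst hy
    exact hfg w hw
  apply H.gen_nil A S
  · intro v
    exact l1 (ev_mem_M (w := []) (by simp) (Set.mem_univ v))
  · intro v
    apply ind
    · intro a ha
      exact lie_M (fun w hw y _ => hb w hw y v) ha
    · exact wB e hNe memE v
    · exact wB e' hNe' memE' v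
  · intro z hz
    apply ind
    · intro a ha; exact l1 (M_closed hz ha)
    · intro a ha; exact l2 (M_closed (Set.mem_insert_of_mem _ hz) ha)
    · intro a ha; exact l3 (M_closed (Set.mem_insert_of_mem _ hz) ha)
  · intro z hz
    rcases hz with rfl | rfl | hz
    · apply ind
      · intro a ha
        exact (sup_le_sup_right l3 _) (wS z hNe' a ha)
      · intro a ha
        rcases hee with rfl | ⟨h1, h2⟩
        · exact AddSubgroup.mem_sup_left (l2 (M_closed (Set.mem_insert _ _) ha))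
        · exact AddSubgroup.mem_sup_right (wG _ _ h2 a ha)
      · intro a ha
        exact AddSubgroup.mem_sup_left (l3 (M_closed (Set.mem_insert _ _) ha))
    · apply ind
      · intro a ha
        exact (sup_le_sup_right l2 _) (wS z hNe a ha)
      · intro a ha
        exact AddSubgroup.mem_sup_left (l2 (M_closed (Set.mem_insert _ _) ha))
      · intro a ha
        rcases hee with rfl | ⟨h1, h2⟩
        · exact AddSubgroup.mem_sup_left (l3 (M_closed (Set.mem_insert _ _) ha))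
        · exact AddSubgroup.mem_sup_right (wG _ _ h1 a ha)
    · apply ind
      · intro a ha; exact AddSubgroup.mem_sup_left (l1 (M_closed hz ha))
      · intro a ha; exact AddSubgroup.mem_sup_left (l2 (M_closed (Set.mem_insert_of_mem _ hz) ha))
      · intro a ha; exact AddSubgroup.mem_sup_left (l3 (M_closed (Set.mem_insert_of_mem _ hz) ha))

end Cfsg.Agent.VL
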