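import Cfsg.Agent.VL.Claim

/-!
Vaughan-Lee's theorem, part 4: the bound for the Lie ring.
-/

set_option autoImplicit false
set_option linter.style.haveILetI false
set_option linter.unusedVariables false

namespace Cfsg.Agent.VL

variable {L : Type*} [LieRing L] {V : Type*} [AddCommGroup V] {ι : V →+ L}

section
variable {p : ℕ} (H : Hyp ι p)
include H

lemma Hyp.finite : Finite L := by
  obtain ⟨k, hk⟩ := H.card
  apply Nat.finite_of_card_ne_zero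
  rw [hk]
  exact pow_ne_zero _ H.prime.ne_zero

lemma Hyp.Im_zero {y : V} (h : ∀ x, ⁅ι x, ι y⁆ = 0) (l : L) : ⁅ι y, l⁆ = 0 := by
  have := H.gen (AddMonoidHom.mk' (fun l : L => ⁅ι y, l⁆) (fun a b => lie_add _ a b)).ker (by
    intro v
    show ⁅ι y, ι v⁆ = 0
    rw [← lie_skew, h, neg_zero]) (by
    intro v l (hl : ⁅ι y, l⁆ = 0)
    show ⁅ι y, ⁅ι v, l⁆⁆ = 0
    rw [leibniz_lie, hl, lie_zero, add_zero, ← lie_skew (ι y) (ι v), h, neg_zero, zero_lie])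
  have h1 : l ∈ (AddMonoidHom.mk' (fun l : L => ⁅ι y, l⁆) (fun a b => lie_add _ a b)).ker := by rw [this]; trivial
  exact h1

/-- the bound when `p` is odd or the ring has class two -/
theorem Hyp.easy [Finite V] {k : ℕ} (hV : Nat.card V = p ^ k) (hc : p ≠ 2 ∨ (∀ x y z : V, ⁅ι x, ⁅ι y, ι z⁆⁆ = 0)) {b : ℕ}
    (hb : ∀ x : V, Nat.card (Im (ι x)) ≤ p ^ b) : Nat.card (R ι Set.univ) ≤ p ^ (b * (b + 1) / 2) := by
  by_cases ht : (⊥ : AddSubgroup V) = ⊤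
  · have h1 : R ι Set.univ = ⊥ := by
      rw [eq_bot_iff]
      apply R_le
      intro z _ l
      have : z ∈ (⊥ : AddSubgroup V) := by rw [ht]; trivial
      rw [AddSubgroup.mem_bot] at this
      subst this
      rw [map_zero, zero_lie]; exact zero_mem _
    rw [h1, AddSubgroup.card_bot]
    exact Nat.one_le_pow _ _ H.prime.pos
  · have h1 := H.claim hV (δ := 0) (by tauto) b ∅ ⊥ ht (by
      intro x _
      rw [R_empty, AddSubgroup.relIndex_bot_left]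
      exact hb x)
    rwa [R_empty, AddSubgroup.relIndex_bot_left, add_zero] at h1

end

variable (H : Hyp ι 2)
include H

lemma Hyp.card_ge4 {T : AddSubgroup L} {t1 t2 : L} (h1 : t1 ∈ T) (h2 : t2 ∈ T) (n1 : t1 ≠ 0) (n2 : t2 ≠ 0) (n : t1 ≠ t2) :
    4 ≤ Nat.card T := by
  haveI := H.finite
  have h3 : 2 < (T : Set L).ncard := (Set.two_lt_ncard_iff (Set.toFinite _)).2 ⟨0, t1, t2, zero_mem T, h1, h2, Ne.symm n1, Ne.symm n2, n⟩
  obtain ⟨k, hk⟩ := H.card_sub T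
  have h4 : (T : Set L).ncard = Nat.card T := rfl
  rw [h4, hk] at h3
  rw [hk]
  rcases k with _ | _ | k
  · norm_num at h3
  · norm_num at h3
  · have : 0 < 2 ^ k := pow_pos (by norm_num) _
    rw [pow_succ, pow_succ]
    omega

lemma Hyp.card_ge8 {T D : AddSubgroup L} {t1 t2 u : L} (h1 : t1 ∈ T) (h2 : t2 ∈ T) (n1 : t1 ≠ 0) (n2 : t2 ≠ 0) (n : t1 ≠ t2)
    (d1 : t1 ∈ D) (d2 : t2 ∈ D) (hu : u ∈ T) (hu' : u ∉ D) : 8 ≤ Nat.card T := by
  haveI := H.finite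
  have h3 : 4 ≤ Nat.card (T ⊓ D : AddSubgroup L) := H.card_ge4 ⟨h1, d1⟩ ⟨h2, d2⟩ n1 n2 n
  obtain ⟨k, hk⟩ := H.card_sub (T ⊓ D)
  obtain ⟨j, hj⟩ := H.card_sub T
  have h4 : T ⊓ D < T := by
    refine lt_of_le_of_ne inf_le_left fun h => hu' ?_
    have : u ∈ T ⊓ D := by rw [h]; exact hu
    exact this.2
  have h5 : Nat.card (T ⊓ D : AddSubgroup L) < Nat.card T := by
    have : ((T ⊓ D : AddSubgroup L) : Set L) ⊂ (T : Set L) := h4
    exact Set.ncard_lt_ncard this (Set.toFinite _)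
  rw [hk, hj] at h5
  rw [hk] at h3
  rw [hj]
  have h6 : k < j := (Nat.pow_lt_pow_iff_right (by norm_num)).1 h5
  have h7 : 2 ≤ k := by
    by_contra hc
    have : k = 0 ∨ k = 1 := by omega
    rcases this with rfl | rfl <;> norm_num at h3
  calc 8 = 2 ^ 3 := by norm_num
    _ ≤ 2 ^ j := Nat.pow_le_pow_right (by norm_num) (by omega)

omit H in
lemma rel_card (K J : AddSubgroup L) : Nat.card (K ⊓ J : AddSubgroup L) * K.relIndex J = Nat.card J := by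
  have h := AddSubgroup.relIndex_inf_mul_relIndex ⊥ K J
  rwa [bot_inf_eq, AddSubgroup.relIndex_bot_left, AddSubgroup.relIndex_bot_left] at h

omit H in
lemma rel_le {K J : AddSubgroup L} {j b : ℕ} (h : 2 ^ j ≤ Nat.card (K ⊓ J : AddSubgroup L)) (hb : Nat.card J ≤ 2 ^ b) (hjb : j ≤ b) :
    K.relIndex J ≤ 2 ^ (b - j) := by
  have h1 := rel_card K J
  have h2 : 2 ^ j * K.relIndex J ≤ 2 ^ j * 2 ^ (b - j) := by
    rw [← pow_add, Nat.add_sub_cancel' hjb]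
    exact (Nat.mul_le_mul_right _ h).trans (h1 ▸ hb)
  exact Nat.le_of_mul_le_mul_left h2 (pow_pos (by norm_num) _)

/-- two shifts -/
lemma Hyp.shift2 {K : AddSubgroup L} {y1 y2 : V} (hy1 : Im (ι y1) ≤ K) (hy2 : Im (ι y2) ≤ K) (x : V) (i j : ℤ) :
    K.relIndex (Im (ι x)) ≤ K.relIndex (Im (ι (x + i • y1 + j • y2))) :=
  (H.shift hy1 x i).trans (H.shift hy2 _ j)

omit H in
/-- the second commutators -/
lemma lie_a_mem {y1 y2 x : V} {S : Set V} (h1 : y1 ∈ S) (h2 : y2 ∈ S) : ⁅ι x, ⁅ι y1, ι y2⁆⁆ ∈ R ι S := by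
  rw [leibniz_lie]
  exact add_mem (lie_mem_R' h2 _) (lie_mem_R h1 _)

/-- the end of the argument from two elements -/
lemma Hyp.fin_two [Finite V] {k : ℕ} (hV : Nat.card V = 2 ^ k) {y1 y2 : V} {H' : AddSubgroup V} (hH' : H' ≠ ⊤) {j m e : ℕ}
    (h : ∀ x ∉ H', (R ι {y2, y1}).relIndex (Im (ι x)) ≤ 2 ^ j) (hR : Nat.card (R ι {y2, y1}) ≤ 2 ^ m)
    (he : m + (j * (j + 1) / 2 + 1) ≤ e) : Nat.card (R ι Set.univ) ≤ 2 ^ e := by
  have h1 := H.claim hV (δ := 1) (by tauto) j {y2, y1} H' hH' h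
  have h2 := rel_card (R ι {y2, y1}) (R ι Set.univ)
  rw [inf_eq_left.2 (R_mono (Set.subset_univ _))] at h2
  rw [← h2]
  refine (Nat.mul_le_mul hR h1).trans ?_
  rw [← pow_add]
  exact Nat.pow_le_pow_right (by norm_num) he

/-- not of class two: a good pair -/
lemma Hyp.exists_pair (hc : ¬ ∀ x y z : V, ⁅ι x, ⁅ι y, ι z⁆⁆ = 0) :
    ∃ y1 y2 : V, ⁅ι y1, ⁅ι y1, ι y2⁆⁆ ≠ 0 ∧ ⁅ι y1, ⁅ι y1, ι y2⁆⁆ ≠ ⁅ι y2, ⁅ι y1, ι y2⁆⁆ := by
  haveI := H.finite
  obtain ⟨y1, y2, h⟩ : ∃ y1 y2 : V, ⁅ι y1, ⁅ι y1, ι y2⁆⁆ ≠ 0 := by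
    by_contra hcon
    push Not at hcon
    apply hc
    intro x y z
    have alt : ∀ x y z : V, ⁅ι x, ⁅ι y, ι z⁆⁆ = - ⁅ι y, ⁅ι x, ι z⁆⁆ := by
      intro x y z
      have h1 := hcon (x + y) z
      simp only [map_add, add_lie, lie_add, hcon, zero_add, add_zero] at h1
      exact eq_neg_of_add_eq_zero_right h1
    have sk : ∀ x y z : V, ⁅ι x, ⁅ι y, ι z⁆⁆ = - ⁅ι x, ⁅ι z, ι y⁆⁆ := by
      intro x y z
      rw [← lie_skew (ι y) (ι z), lie_neg]
    have jac : ⁅ι x, ⁅ι y, ι z⁆⁆ = ⁅⁅ι x, ι y⁆, ι z⁆ + ⁅ι y, ⁅ι x, ι z⁆⁆ := leibniz_lie _ _ _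
    have e1 : ⁅⁅ι x, ι y⁆, ι z⁆ = - ⁅ι z, ⁅ι x, ι y⁆⁆ := (lie_skew _ _).symm
    have e2 : ⁅ι z, ⁅ι x, ι y⁆⁆ = ⁅ι x, ⁅ι y, ι z⁆⁆ := by
      rw [alt z x y, sk x z y, neg_neg]
    have e3 : ⁅ι y, ⁅ι x, ι z⁆⁆ = - ⁅ι x, ⁅ι y, ι z⁆⁆ := by rw [alt x y z, neg_neg]
    rw [e1, e2, e3] at jac
    have h3 : (3 : ℤ) • ⁅ι x, ⁅ι y, ι z⁆⁆ = 0 := by
      have : (3 : ℤ) • ⁅ι x, ⁅ι y, ι z⁆⁆ = ⁅ι x, ⁅ι y, ι z⁆⁆ + ⁅ι x, ⁅ι y, ι z⁆⁆ + ⁅ι x, ⁅ι y, ι z⁆⁆ := by
        rw [show (3 : ℤ) = 1 + 1 + 1 by norm_num, add_smul, add_smul, one_smul]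
      rw [this]
      nth_rewrite 1 [jac]
      abel
    obtain ⟨k, hk⟩ := H.card
    have h4 : ((2 : ℤ) ^ k) • ⁅ι x, ⁅ι y, ι z⁆⁆ = 0 := by
      have := pow_smul_zero (V := L) hk ⁅ι x, ⁅ι y, ι z⁆⁆
      rwa [Nat.cast_ofNat] at this
    have h5 : ⁅ι x, ⁅ι y, ι z⁆⁆ ∈ (⊥ : AddSubgroup L) := by
      refine mem_of_coprime (m := 3) (n := 2 ^ k) ?_ (by rw [h3]; exact zero_mem _) (by rw [h4]; exact zero_mem _)
      apply IsCoprime.pow_right
      exact ⟨1, -1, by norm_num⟩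
    exact h5
  by_cases h2 : ⁅ι y1, ⁅ι y1, ι y2⁆⁆ = ⁅ι y2, ⁅ι y1, ι y2⁆⁆
  · refine ⟨y1, y2 - y1, ?_, ?_⟩
    · rw [map_sub, lie_sub, lie_self, sub_zero]; exact h
    · rw [map_sub, lie_sub, lie_self, sub_zero, sub_lie, ← h2, sub_self]; exact h
  · exact ⟨y1, y2, h, h2⟩

/-- the subgroup of elements with few commutators -/
def Bad (ι : V →+ L) (y : V) (A : AddSubgroup L) : AddSubgroup V where
  carrier := {x | ⁅ι x, ι y⁆ ∈ A}
  add_mem' := by
    intro a b ha hb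
    show ⁅ι (a + b), ι y⁆ ∈ A
    rw [map_add, add_lie]; exact add_mem ha hb
  zero_mem' := by
    show ⁅ι 0, ι y⁆ ∈ A
    rw [map_zero, zero_lie]; exact zero_mem _
  neg_mem' := by
    intro a ha
    show ⁅ι (-a), ι y⁆ ∈ A
    rw [map_neg, neg_lie]; exact neg_mem ha

omit H in
lemma mem_Bad {y x : V} {A : AddSubgroup L} : x ∈ Bad ι y A ↔ ⁅ι x, ι y⁆ ∈ A := Iff.rfl

/-- the main theorem for the Lie ring, `p = 2` -/
theorem Hyp.main2 [Finite V] {k : ℕ} (hV : Nat.card V = 2 ^ k) {b : ℕ}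
    (hb : ∀ x : V, Nat.card (Im (ι x)) ≤ 2 ^ b) (D2 D3 : AddSubgroup L) (hD : D2 ⊓ D3 = ⊥) (hD2 : ∀ x y : V, ⁅ι x, ι y⁆ ∈ D2)
    (hD3 : ∀ x y z : V, ⁅ι x, ⁅ι y, ι z⁆⁆ ∈ D3) : Nat.card (R ι Set.univ) ≤ 2 ^ (b * (b + 1) / 2) := by
  haveI := H.finite
  by_cases hc : ∀ x y z : V, ⁅ι x, ⁅ι y, ι z⁆⁆ = 0
  · exact H.easy hV (Or.inr hc) hb
  obtain ⟨y1, y2, hz1, hz12⟩ := H.exists_pair hc
  have dis : ∀ t, t ∈ D2 → t ∈ D3 → t = 0 := by
    intro t h1 h2
    have : t ∈ D2 ⊓ D3 := ⟨h1, h2⟩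
    rw [hD] at this
    exact this
  have arith : ∀ b : ℕ, ∃ c, b * (b + 1) = 2 * c := fun b => (Nat.even_mul_succ_self b).two_dvd
  -- step 0
  by_cases h0 : ∃ y x : V, ⁅ι x, ι y⁆ ≠ 0 ∧ Nat.card (Im (ι y)) * 2 ≤ 2 ^ b
  · obtain ⟨y, x0, hx0, hy⟩ := h0
    have hb1 : 1 ≤ b := by
      by_contra hb1
      have : b = 0 := by omega
      subst this
      have : 0 < Nat.card (Im (ι y)) := Nat.card_pos
      omega
    obtain ⟨b, rfl⟩ : ∃ b', b = b' + 1 := ⟨b - 1, by omega⟩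
    have hy' : Nat.card (Im (ι y)) ≤ 2 ^ b := by
      rw [pow_succ] at hy
      exact Nat.le_of_mul_le_mul_right hy (by norm_num)
    have hH' : Bad ι y (⊥ : AddSubgroup L) ≠ ⊤ := by
      intro h
      apply hx0
      have : x0 ∈ Bad ι y (⊥ : AddSubgroup L) := by rw [h]; trivial
      exact this
    have h1 := H.claim hV (δ := 1) (by tauto) b {y} _ hH' (by
      intro x hx
      have h2 : ⁅ι x, ι y⁆ ∉ (⊥ : AddSubgroup L) := hx
      have h3 := H.drop (K := ⊥) (K' := R ι {y}) bot_le (lie_mem_Im (ι x) (ι y)) (lie_mem_R' (Set.mem_singleton _) _) h2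
      rw [AddSubgroup.relIndex_bot_left] at h3
      have h4 := h3.trans (hb x)
      rw [pow_succ'] at h4
      exact Nat.le_of_mul_le_mul_left h4 (by norm_num))
    have h2 := cost (ι := ι) ∅ y
    rw [R_empty, AddSubgroup.relIndex_bot_left, AddSubgroup.relIndex_bot_left, LawfulSingleton.insert_empty_eq] at h2
    rw [h2]
    refine (Nat.mul_le_mul hy' h1).trans ?_
    rw [← pow_add]
    apply Nat.pow_le_pow_right (by norm_num)
    obtain ⟨c, hc⟩ := arith b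
    have e0 : (b + 1) * (b + 1 + 1) = b * (b + 1) + (b + 1) * 2 := by ring
    rw [e0, hc]
    omega
  push Not at h0
  have hcard : ∀ y x : V, ⁅ι x, ι y⁆ ≠ 0 → Nat.card (Im (ι y)) = 2 ^ b := by
    intro y x hx
    have h1 := h0 y x hx
    have h2 := hb y
    obtain ⟨j, hj⟩ := H.card_sub (Im (ι y))
    rw [hj] at h1 h2 ⊢
    rw [← pow_succ] at h1
    have h3 : b < j + 1 := (Nat.pow_lt_pow_iff_right (by norm_num)).1 h1
    have h4 : j ≤ b := (Nat.pow_le_pow_iff_right (by norm_num)).1 h2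
    have : j = b := by omega
    rw [this]
  -- notation
  set a : L := ⁅ι y1, ι y2⁆ with ha
  have ha0 : a ≠ 0 := by
    intro h
    rw [h, lie_zero] at hz1
    exact hz1 rfl
  have ha' : ⁅ι y2, ι y1⁆ = -a := (lie_skew _ _).symm
  have hy1 : Im (ι y1) ≤ R ι {y2, y1} := Im_le_R (by simp)
  have hy2 : Im (ι y2) ≤ R ι {y2, y1} := Im_le_R (by simp)
  have c1 : Nat.card (Im (ι y1)) = 2 ^ b := hcard y1 y2 (by rw [ha']; exact neg_ne_zero.2 ha0)
  have c2 : Nat.card (Im (ι y2)) = 2 ^ b := hcard y2 y1 ha0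
  have hR2 : Nat.card (R ι {y2, y1}) = 2 ^ b * (Im (ι y1)).relIndex (Im (ι y2)) := by
    have h1 := rel_card (Im (ι y1)) (R ι {y2, y1})
    have e1 : R ι {y2, y1} = Im (ι y1) ⊔ Im (ι y2) := by
      rw [R_insert, ← LawfulSingleton.insert_empty_eq y1, R_insert, R_empty, bot_sup_eq]
    have e2 : Im (ι y1) ⊓ R ι {y2, y1} = Im (ι y1) := inf_eq_left.2 hy1
    rw [e2, c1, e1, relIndex_sup_Im] at h1
    rw [e1, h1]
  have haI : a ∈ Im (ι y1) ⊓ Im (ι y2) := ⟨lie_mem_Im _ _, lie_mem_Im' _ _⟩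
  have haD : a ∈ D2 := hD2 _ _
  have hmem : ∀ x : V, ⁅ι x, a⁆ ∈ R ι {y2, y1} := fun x => lie_a_mem (by simp) (by simp)
  have hVb : (⊥ : AddSubgroup V) ≠ ⊤ := by
    intro h
    have : y1 ∈ (⊥ : AddSubgroup V) := by rw [h]; trivial
    rw [AddSubgroup.mem_bot] at this
    rw [this, map_zero, zero_lie] at ha
    exact ha0 ha
  -- step 1
  by_cases h4 : 4 ≤ Nat.card (Im (ι y1) ⊓ Im (ι y2) : AddSubgroup L)
  · have hb2 : 2 ≤ b := by
      have h5 : 4 ≤ 2 ^ b := by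
        rw [← c1]
        exact h4.trans (Nat.card_mono (Set.toFinite _) (inf_le_left : Im (ι y1) ⊓ Im (ι y2) ≤ Im (ι y1)))
      by_contra hcb
      have : b = 0 ∨ b = 1 := by omega
      rcases this with rfl | rfl <;> norm_num at h5
    obtain ⟨b, rfl⟩ : ∃ b', b = b' + 2 := ⟨b - 2, by omega⟩
    refine H.fin_two hV (y1 := y1) (y2 := y2) hVb (j := b) (m := 2 * b + 2) ?_ ?_ ?_
    · intro x _
      -- choose the shift
      obtain ⟨j, hj⟩ : ∃ j : ℤ, ⁅ι x, ι y1⁆ + j • ⁅ι y2, ι y1⁆ ≠ 0 := by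
        by_cases h5 : ⁅ι x, ι y1⁆ = 0
        · refine ⟨1, ?_⟩
          rw [h5, one_smul, zero_add, ha']
          exact neg_ne_zero.2 ha0
        · exact ⟨0, by rwa [zero_smul, add_zero]⟩
      obtain ⟨i, hi⟩ : ∃ i : ℤ, ⁅ι x, a⁆ + i • ⁅ι y1, a⁆ + j • ⁅ι y2, a⁆ ≠ 0 := by
        by_cases h5 : ⁅ι x, a⁆ + j • ⁅ι y2, a⁆ = 0
        · refine ⟨1, ?_⟩
          rw [add_right_comm, h5, one_smul, zero_add]
          exact hz1
        · refine ⟨0, ?_⟩
          rwa [zero_smul, add_zero]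
      refine (H.shift2 hy1 hy2 x i j).trans ?_
      have e1 : ⁅ι (x + i • y1 + j • y2), ι y1⁆ = ⁅ι x, ι y1⁆ + j • ⁅ι y2, ι y1⁆ := by
        simp only [map_add, map_zsmul, add_lie, zsmul_lie, lie_self, smul_zero, add_zero]
      have e2 : ⁅ι (x + i • y1 + j • y2), a⁆ = ⁅ι x, a⁆ + i • ⁅ι y1, a⁆ + j • ⁅ι y2, a⁆ := by
        simp only [map_add, map_zsmul, add_lie, zsmul_lie]
      rw [← e1] at hj
      rw [← e2] at hi
      have h6 := rel_le (K := R ι {y2, y1}) (j := 2) (b := b + 2) (J := Im (ι (x + i • y1 + j • y2))) (by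
        refine H.card_ge4 (t1 := ⁅ι (x + i • y1 + j • y2), ι y1⁆) (t2 := ⁅ι (x + i • y1 + j • y2), a⁆) ?_ ?_ hj hi ?_
        · exact ⟨hy1 (lie_mem_Im' _ _), lie_mem_Im _ _⟩
        · exact ⟨hmem _, lie_mem_Im _ _⟩
        · intro h
          exact hj (dis _ (hD2 _ _) (by rw [h]; exact hD3 _ _ _))) (hb _) (by omega)
      simpa using h6
    · rw [hR2]
      have h6 := rel_le (K := Im (ι y1)) (J := Im (ι y2)) (j := 2) h4 c2.le (by omega)
      rw [Nat.add_sub_cancel] at h6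
      refine (Nat.mul_le_mul_left _ h6).trans ?_
      rw [← pow_add]
      exact Nat.pow_le_pow_right (by norm_num) (by omega)
    · obtain ⟨c, hc⟩ := arith b
      have e0 : (b + 2) * (b + 2 + 1) = b * (b + 1) + (2 * b + 3) * 2 := by ring
      rw [e0, hc]
      omega
  -- step 1'
  have hI : ∀ t ∈ Im (ι y1) ⊓ Im (ι y2), t = 0 ∨ t = a := by
    intro t ht
    by_contra hcon
    push Not at hcon
    exact h4 (H.card_ge4 ht haI hcon.1 ha0 hcon.2)
  have h2a : a + a = 0 := by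
    rcases hI _ (add_mem haI haI) with h | h
    · exact h
    · exact absurd (add_eq_left.1 h) ha0
  have hna : -a = a := neg_eq_of_add_eq_zero_left h2a
  have hz1n : ⁅ι y1, a⁆ ∉ Im (ι y2) := by
    intro h
    rcases hI _ ⟨lie_mem_Im _ _, h⟩ with h | h
    · exact hz1 h
    · exact ha0 (dis a haD (by rw [← h]; exact hD3 _ _ _))
  have hb1 : 1 ≤ b := by
    by_contra hb1
    have : b = 0 := by omega
    subst this
    rw [pow_zero, AddSubgroup.card_eq_one] at c1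
    exact ha0 (by simpa [c1] using haI.1)
  have hR2' : Nat.card (R ι {y2, y1}) ≤ 2 ^ (2 * b - 1) := by
    rw [hR2]
    have h5 : 2 ^ 1 ≤ Nat.card (Im (ι y1) ⊓ Im (ι y2) : AddSubgroup L) := by
      have : 1 < Nat.card (Im (ι y1) ⊓ Im (ι y2) : AddSubgroup L) := by
        rw [AddSubgroup.one_lt_card_iff_ne_bot]
        intro h
        rw [h] at haI
        exact ha0 haI
      omega
    have h6 := rel_le (K := Im (ι y1)) (J := Im (ι y2)) (j := 1) h5 c2.le hb1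
    refine (Nat.mul_le_mul_left _ h6).trans ?_
    rw [← pow_add]
    exact Nat.pow_le_pow_right (by norm_num) (by omega)
  -- good shifts suffice
  have good : ∀ H' : AddSubgroup V, H' ≠ ⊤ → (∀ x ∉ H', ∃ i j : ℤ, ⁅ι (x + i • y1 + j • y2), ι y1⁆ ≠ 0 ∧
      ⁅ι (x + i • y1 + j • y2), ι y2⁆ ≠ 0 ∧ ⁅ι (x + i • y1 + j • y2), ι y1⁆ ≠ ⁅ι (x + i • y1 + j • y2), ι y2⁆ ∧
      ⁅ι (x + i • y1 + j • y2), a⁆ ≠ 0) → Nat.card (R ι Set.univ) ≤ 2 ^ (b * (b + 1) / 2) := by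
    intro H' hH' hg
    have key : ∀ x ∉ H', ∃ i j : ℤ, 8 ≤ Nat.card (R ι {y2, y1} ⊓ Im (ι (x + i • y1 + j • y2)) : AddSubgroup L) := by
      intro x hx
      obtain ⟨i, j, g1, g2, g3, g4⟩ := hg x hx
      refine ⟨i, j, H.card_ge8 (D := D2) (t1 := ⁅ι (x + i • y1 + j • y2), ι y1⁆) (t2 := ⁅ι (x + i • y1 + j • y2), ι y2⁆)
        (u := ⁅ι (x + i • y1 + j • y2), a⁆) ⟨hy1 (lie_mem_Im' _ _), lie_mem_Im _ _⟩ ⟨hy2 (lie_mem_Im' _ _), lie_mem_Im _ _⟩
        g1 g2 g3 (hD2 _ _) (hD2 _ _) ⟨hmem _, lie_mem_Im _ _⟩ ?_⟩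
      intro h
      exact g4 (dis _ h (hD3 _ _ _))
    have hb3 : 3 ≤ b := by
      obtain ⟨x, hx⟩ := exists_notMem hH'
      obtain ⟨i, j, h8⟩ := key x hx
      have h9 := h8.trans ((Nat.card_mono (Set.toFinite _) (inf_le_right : R ι {y2, y1} ⊓ Im (ι (x + i • y1 + j • y2)) ≤ _)).trans (hb _))
      by_contra hcb
      have : b = 1 ∨ b = 2 := by omega
      rcases this with rfl | rfl <;> norm_num at h9
    obtain ⟨b, rfl⟩ : ∃ b', b = b' + 3 := ⟨b - 3, by omega⟩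
    refine H.fin_two hV (y1 := y1) (y2 := y2) hH' (j := b) (m := 2 * (b + 3) - 1) ?_ hR2' ?_
    · intro x hx
      obtain ⟨i, j, h8⟩ := key x hx
      refine (H.shift2 hy1 hy2 x i j).trans ?_
      have h9 := rel_le (K := R ι {y2, y1}) (j := 3) (b := b + 3) (J := Im (ι (x + i • y1 + j • y2))) (by
        rw [show 2 ^ 3 = 8 by norm_num]; exact h8) (hb _) (by omega)
      simpa using h9
    · obtain ⟨c, hc⟩ := arith b
      have e0 : (b + 3) * (b + 3 + 1) = b * (b + 1) + (3 * b + 6) * 2 := by ring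
      rw [e0, hc]
      omega
  -- the subgroup `{0, a}`
  have hZ : ∀ t, t ∈ AddSubgroup.zmultiples a ↔ t = 0 ∨ t = a := by
    intro t
    rw [AddSubgroup.mem_zmultiples_iff]
    constructor
    · rintro ⟨n, rfl⟩
      rcases Int.even_or_odd n with ⟨m, rfl⟩ | ⟨m, rfl⟩
      · left
        rw [add_smul, ← smul_add, h2a, smul_zero]
      · right
        rw [add_smul, two_mul, add_smul, ← smul_add, h2a, smul_zero, one_smul, zero_add]
    · rintro (rfl | rfl)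
      · exact ⟨0, zero_smul _ _⟩
      · exact ⟨1, one_smul _ _⟩
  have haZ : a ∈ AddSubgroup.zmultiples a := AddSubgroup.mem_zmultiples a
  have f1 : ∀ x : V, ∀ i j : ℤ, ⁅ι (x + i • y1 + j • y2), ι y1⁆ = ⁅ι x, ι y1⁆ + j • a := by
    intro x i j
    simp only [map_add, map_zsmul, add_lie, zsmul_lie, lie_self, smul_zero, add_zero, ha', hna]
  have f2 : ∀ x : V, ∀ i j : ℤ, ⁅ι (x + i • y1 + j • y2), ι y2⁆ = ⁅ι x, ι y2⁆ + i • a := by
    intro x i j
    simp only [map_add, map_zsmul, add_lie, zsmul_lie, lie_self, smul_zero, add_zero, ← ha]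
  have f3 : ∀ x : V, ∀ i j : ℤ, ⁅ι (x + i • y1 + j • y2), a⁆ = ⁅ι x, a⁆ + i • ⁅ι y1, a⁆ + j • ⁅ι y2, a⁆ := by
    intro x i j
    simp only [map_add, map_zsmul, add_lie, zsmul_lie]
  have h2z : ⁅ι y2, a⁆ + ⁅ι y2, a⁆ = 0 := by
    rw [← lie_add, h2a, lie_zero]
  by_cases hH1 : Bad ι y2 (AddSubgroup.zmultiples a) ≠ ⊤
  · apply good _ hH1
    intro x hx
    rw [mem_Bad] at hx
    have hw2 : ∀ i : ℤ, ⁅ι x, ι y2⁆ + i • a ∉ AddSubgroup.zmultiples a := fun i h =>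
      hx ((AddSubgroup.add_mem_cancel_right _ (zsmul_mem haZ i)).1 h)
    have hw2' : ∀ i : ℤ, ⁅ι x, ι y2⁆ + i • a ≠ 0 := fun i h => hw2 i (by rw [h]; exact zero_mem _)
    by_cases hv1 : ⁅ι x, ι y1⁆ ∈ AddSubgroup.zmultiples a
    · obtain ⟨j, hj⟩ : ∃ j : ℤ, ⁅ι x, ι y1⁆ + j • a = a := by
        rcases (hZ _).1 hv1 with h | h
        · exact ⟨1, by rw [h, one_smul, zero_add]⟩
        · exact ⟨0, by rw [h, zero_smul, add_zero]⟩
      obtain ⟨i, hi⟩ : ∃ i : ℤ, ⁅ι x, a⁆ + i • ⁅ι y1, a⁆ + j • ⁅ι y2, a⁆ ≠ 0 := by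
        by_cases h5 : ⁅ι x, a⁆ + j • ⁅ι y2, a⁆ = 0
        · refine ⟨1, ?_⟩
          rw [add_right_comm, h5, one_smul, zero_add]
          exact hz1
        · refine ⟨0, ?_⟩
          rwa [zero_smul, add_zero]
      refine ⟨i, j, ?_, ?_, ?_, ?_⟩
      · rw [f1, hj]; exact ha0
      · rw [f2]; exact hw2' i
      · rw [f1, f2, hj]
        intro h
        exact hw2 i (by rw [← h]; exact haZ)
      · rw [f3]; exact hi
    · have hw1 : ∀ i : ℤ, ⁅ι x, ι y1⁆ + i • a ∉ AddSubgroup.zmultiples a := fun i h =>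
        hv1 ((AddSubgroup.add_mem_cancel_right _ (zsmul_mem haZ i)).1 h)
      have hw1' : ∀ i : ℤ, ⁅ι x, ι y1⁆ + i • a ≠ 0 := fun i h => hw1 i (by rw [h]; exact zero_mem _)
      by_cases hd : ⁅ι x, ι y1⁆ - ⁅ι x, ι y2⁆ ∈ AddSubgroup.zmultiples a
      · rcases (hZ _).1 hd with hd | hd
        · rw [sub_eq_zero] at hd
          by_cases h5 : ⁅ι x, a⁆ + ⁅ι y1, a⁆ = 0
          · refine ⟨0, 1, ?_, ?_, ?_, ?_⟩
            · rw [f1]; exact hw1' _
            · rw [f2]; exact hw2' _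
            · rw [f1, f2, hd, zero_smul, one_smul, add_zero]
              exact fun h => ha0 (add_eq_left.1 h)
            · rw [f3, zero_smul, one_smul, add_zero]
              intro h
              rw [← h] at h5
              exact hz12 (add_left_cancel h5)
          · refine ⟨1, 0, ?_, ?_, ?_, ?_⟩
            · rw [f1]; exact hw1' _
            · rw [f2]; exact hw2' _
            · rw [f1, f2, hd, zero_smul, one_smul, add_zero]
              exact fun h => ha0 (add_eq_left.1 h.symm)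
            · rw [f3, zero_smul, one_smul, add_zero]; exact h5
        · have hd' : ⁅ι x, ι y1⁆ = ⁅ι x, ι y2⁆ + a := by rw [← hd]; abel
          by_cases h5 : ⁅ι x, a⁆ = 0
          · refine ⟨1, 1, ?_, ?_, ?_, ?_⟩
            · rw [f1]; exact hw1' _
            · rw [f2]; exact hw2' _
            · rw [f1, f2, one_smul, hd']
              exact fun h => ha0 (add_eq_left.1 h)
            · rw [f3, one_smul, one_smul, h5, zero_add]
              intro h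
              apply hz12
              rw [← h2z] at h
              exact add_right_cancel h
          · refine ⟨0, 0, ?_, ?_, ?_, ?_⟩
            · rw [f1]; exact hw1' _
            · rw [f2]; exact hw2' _
            · rw [f1, f2, zero_smul, add_zero, add_zero, hd']
              exact fun h => ha0 (add_eq_left.1 h)
            · rw [f3, zero_smul, zero_smul, add_zero, add_zero]; exact h5
      · obtain ⟨i, hi⟩ : ∃ i : ℤ, ⁅ι x, a⁆ + i • ⁅ι y1, a⁆ ≠ 0 := by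
          by_cases h5 : ⁅ι x, a⁆ = 0
          · exact ⟨1, by rw [h5, one_smul, zero_add]; exact hz1⟩
          · exact ⟨0, by rwa [zero_smul, add_zero]⟩
        refine ⟨i, 0, ?_, ?_, ?_, ?_⟩
        · rw [f1]; exact hw1' _
        · rw [f2]; exact hw2' _
        · rw [f1, f2, zero_smul, add_zero]
          intro h
          apply hd
          rw [h, add_sub_cancel_left]
          exact zsmul_mem haZ i
        · rw [f3, zero_smul, add_zero]; exact hi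
  push Not at hH1
  by_cases hH2 : Bad ι y1 (AddSubgroup.zmultiples a) ≠ ⊤
  · apply good _ hH2
    intro x hx
    rw [mem_Bad] at hx
    have hv2 : x ∈ Bad ι y2 (AddSubgroup.zmultiples a) := by rw [hH1]; trivial
    obtain ⟨i, hi⟩ : ∃ i : ℤ, ⁅ι x, ι y2⁆ + i • a = a := by
      rcases (hZ _).1 (mem_Bad.1 hv2) with h | h
      · exact ⟨1, by rw [h, one_smul, zero_add]⟩
      · exact ⟨0, by rw [h, zero_smul, add_zero]⟩
    refine ⟨i, 0, ?_, ?_, ?_, ?_⟩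
    · rw [f1, zero_smul, add_zero]
      intro h
      exact hx (by rw [h]; exact zero_mem _)
    · rw [f2, hi]; exact ha0
    · rw [f1, f2, hi, zero_smul, add_zero]
      intro h
      exact hx (by rw [h]; exact haZ)
    · intro h
      apply hz1n
      have e1 : ⁅ι (x + i • y1 + (0 : ℤ) • y2 - y1), ι y2⁆ = 0 := by
        rw [map_sub, sub_lie, f2, hi, ← ha, sub_self]
      have e2 : ⁅ι (x + i • y1 + (0 : ℤ) • y2 - y1), a⁆ = - ⁅ι y1, a⁆ := by
        rw [map_sub, sub_lie, h, zero_sub]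
      rw [ha, leibniz_lie, e1, lie_zero, add_zero, ← ha] at e2
      rw [← neg_neg ⁅ι y1, a⁆, ← e2]
      exact neg_mem (lie_mem_Im' _ _)
  push Not at hH2
  -- step 2
  have dec : ∀ x : V, ∃ i j : ℤ, ⁅ι (x + i • y1 + j • y2), ι y1⁆ = 0 ∧ ⁅ι (x + i • y1 + j • y2), ι y2⁆ = 0 := by
    intro x
    have hv1 : x ∈ Bad ι y1 (AddSubgroup.zmultiples a) := by rw [hH2]; trivial
    have hv2 : x ∈ Bad ι y2 (AddSubgroup.zmultiples a) := by rw [hH1]; trivial
    have kk : ∀ t, t ∈ AddSubgroup.zmultiples a → ∃ i : ℤ, t + i • a = 0 := by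
      intro t ht
      rcases (hZ _).1 ht with h | h
      · exact ⟨0, by rw [h, zero_smul, add_zero]⟩
      · exact ⟨1, by rw [h, one_smul, h2a]⟩
    obtain ⟨i, hi⟩ := kk _ (mem_Bad.1 hv2)
    obtain ⟨j, hj⟩ := kk _ (mem_Bad.1 hv1)
    exact ⟨i, j, by rw [f1, hj], by rw [f2, hi]⟩
  by_cases hcen : ∃ c x0 : V, ⁅ι c, ι y1⁆ = 0 ∧ ⁅ι c, ι y2⁆ = 0 ∧ ⁅ι x0, ι c⁆ ≠ 0
  · exfalso
    obtain ⟨c, x0, hc1, hc2, hx0⟩ := hcen
    have cc : Nat.card (Im (ι c)) = 2 ^ b := hcard c x0 hx0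
    let A : AddSubgroup L :=
      { carrier := {l | ⁅ι y1, l⁆ = 0 ∧ ⁅ι y2, l⁆ = 0}
        add_mem' := by
          rintro s t ⟨h1, h2⟩ ⟨h3, h4⟩
          exact ⟨by rw [lie_add, h1, h3, add_zero], by rw [lie_add, h2, h4, add_zero]⟩
        zero_mem' := ⟨lie_zero _, lie_zero _⟩
        neg_mem' := by
          rintro s ⟨h1, h2⟩
          exact ⟨by rw [lie_neg, h1, neg_zero], by rw [lie_neg, h2, neg_zero]⟩ }
    let Bs : AddSubgroup L :=
      { carrier := {l | ∀ c' : V, ⁅ι c', ι y1⁆ = 0 → ⁅ι c', ι y2⁆ = 0 → ⁅ι c', l⁆ = 0}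
        add_mem' := by
          intro s t h1 h2 c' k1 k2
          rw [lie_add, h1 c' k1 k2, h2 c' k1 k2, add_zero]
        zero_mem' := fun c' _ _ => lie_zero _
        neg_mem' := by
          intro s h1 c' k1 k2
          rw [lie_neg, h1 c' k1 k2, neg_zero] }
    have mA : ∀ l, l ∈ A ↔ ⁅ι y1, l⁆ = 0 ∧ ⁅ι y2, l⁆ = 0 := fun l => Iff.rfl
    have mB : ∀ l, l ∈ Bs ↔ ∀ c' : V, ⁅ι c', ι y1⁆ = 0 → ⁅ι c', ι y2⁆ = 0 → ⁅ι c', l⁆ = 0 := fun l => Iff.rfl
    have yB1 : ι y1 ∈ Bs := fun c' k1 _ => k1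
    have yB2 : ι y2 ∈ Bs := fun c' _ k2 => k2
    have cA : ∀ c' : V, ⁅ι c', ι y1⁆ = 0 → ⁅ι c', ι y2⁆ = 0 → ι c' ∈ A := by
      intro c' k1 k2
      refine ⟨?_, ?_⟩
      · rw [← lie_skew, k1, neg_zero]
      · rw [← lie_skew, k2, neg_zero]
    have lieA : ∀ c' : V, ⁅ι c', ι y1⁆ = 0 → ⁅ι c', ι y2⁆ = 0 → ∀ l ∈ A, ⁅ι c', l⁆ ∈ A := by
      intro c' k1 k2 l hl
      obtain ⟨m1, m2⟩ := cA c' k1 k2
      refine ⟨?_, ?_⟩
      · rw [leibniz_lie, m1, zero_lie, hl.1, lie_zero, add_zero]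
      · rw [leibniz_lie, m2, zero_lie, hl.2, lie_zero, add_zero]
    have lieB : ∀ y ∈ ({y1, y2} : Set V), ∀ l ∈ Bs, ⁅ι y, l⁆ ∈ Bs := by
      intro y hy l hl c' k1 k2
      have : ⁅ι c', ι y⁆ = 0 := by
        rcases hy with rfl | rfl
        · exact k1
        · exact k2
      rw [leibniz_lie, this, zero_lie, hl c' k1 k2, lie_zero, add_zero]
    have hAB : A ⊔ Bs = ⊤ := by
      apply H.gen
      · intro v
        obtain ⟨i, j, k1, k2⟩ := dec v
        have e : ι v = ι (v + i • y1 + j • y2) + (-(i • ι y1) + -(j • ι y2)) := by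
          simp only [map_add, map_zsmul]; abel
        rw [e]
        exact add_mem (AddSubgroup.mem_sup_left (cA _ k1 k2)) (AddSubgroup.mem_sup_right
          (add_mem (neg_mem (zsmul_mem yB1 i)) (neg_mem (zsmul_mem yB2 j))))
      · intro v l hl
        obtain ⟨α, hα, β, hβ, rfl⟩ := AddSubgroup.mem_sup.1 hl
        obtain ⟨i, j, k1, k2⟩ := dec v
        have e : ι v = ι (v + i • y1 + j • y2) + (-(i • ι y1) + -(j • ι y2)) := by
          simp only [map_add, map_zsmul]; abel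
        have e1 : ⁅ι v, α + β⁆ = ⁅ι (v + i • y1 + j • y2), α⁆ + (-(i • ⁅ι y1, β⁆) + -(j • ⁅ι y2, β⁆)) := by
          rw [e, add_lie, lie_add, hβ _ k1 k2, add_zero, add_lie, neg_lie, neg_lie, zsmul_lie, zsmul_lie, lie_add, lie_add,
            hα.1, hα.2, zero_add, zero_add]
        rw [e1]
        exact add_mem (AddSubgroup.mem_sup_left (lieA _ k1 k2 _ hα)) (AddSubgroup.mem_sup_right
          (add_mem (neg_mem (zsmul_mem (lieB y1 (by simp) _ hβ) i)) (neg_mem (zsmul_mem (lieB y2 (by simp) _ hβ) j))))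
    have both : ∀ y ∈ ({y1, y2} : Set V), Im (ι y) ≤ Im (ι (y + c)) ∧ Im (ι c) ≤ Im (ι (y + c)) := by
      intro y hy
      refine ⟨?_, ?_⟩
      · rintro _ ⟨l, rfl⟩
        have hl : l ∈ A ⊔ Bs := by rw [hAB]; trivial
        obtain ⟨α, hα, β, hβ, rfl⟩ := AddSubgroup.mem_sup.1 hl
        refine ⟨β, ?_⟩
        show ⁅ι (y + c), β⁆ = ⁅ι y, α + β⁆
        have h0 : ⁅ι y, α⁆ = 0 := by
          rcases hy with rfl | rfl
          · exact hα.1
          · exact hα.2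
        rw [map_add, add_lie, hβ c hc1 hc2, lie_add, h0, add_zero, zero_add]
      · rintro _ ⟨l, rfl⟩
        have hl : l ∈ A ⊔ Bs := by rw [hAB]; trivial
        obtain ⟨α, hα, β, hβ, rfl⟩ := AddSubgroup.mem_sup.1 hl
        refine ⟨α, ?_⟩
        show ⁅ι (y + c), α⁆ = ⁅ι c, α + β⁆
        have h0 : ⁅ι y, α⁆ = 0 := by
          rcases hy with rfl | rfl
          · exact hα.1
          · exact hα.2
        rw [map_add, add_lie, h0, lie_add, hβ c hc1 hc2, add_zero, zero_add]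
    have eqs : ∀ y ∈ ({y1, y2} : Set V), Nat.card (Im (ι y)) = 2 ^ b → Im (ι y) = Im (ι c) := by
      intro y hy hcy
      obtain ⟨b1, b2⟩ := both y hy
      have g1 : Im (ι y) = Im (ι (y + c)) := by
        apply AddSubgroup.eq_of_le_of_card_ge b1
        rw [hcy]; exact hb _
      have g2 : Im (ι c) = Im (ι (y + c)) := by
        apply AddSubgroup.eq_of_le_of_card_ge b2
        rw [cc]; exact hb _
      rw [g1, ← g2]
    apply hz1n
    rw [eqs y2 (by simp) c2, ← eqs y1 (by simp) c1]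
    exact lie_mem_Im _ _
  · push Not at hcen
    have hle : R ι Set.univ ≤ R ι {y2, y1} := by
      apply R_le
      intro z _ l
      obtain ⟨i, j, k1, k2⟩ := dec z
      have h0 := H.Im_zero (fun x => hcen (z + i • y1 + j • y2) x k1 k2) l
      have e : ⁅ι z, l⁆ = ⁅ι (z + i • y1 + j • y2), l⁆ + (-(i • ⁅ι y1, l⁆) + -(j • ⁅ι y2, l⁆)) := by
        simp only [map_add, map_zsmul, add_lie, zsmul_lie]; abel
      rw [e, h0, zero_add]
      exact add_mem (neg_mem (zsmul_mem (hy1 (lie_mem_Im _ _)) i)) (neg_mem (zsmul_mem (hy2 (lie_mem_Im _ _)) j))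
    refine (Nat.card_mono (Set.toFinite _) hle).trans (hR2'.trans ?_)
    apply Nat.pow_le_pow_right (by norm_num)
    rcases b with _ | _ | b
    · omega
    · norm_num
    · obtain ⟨c, hc⟩ := arith b
      have e0 : (b + 1 + 1) * (b + 1 + 1 + 1) = b * (b + 1) + (2 * b + 3) * 2 := by ring
      rw [e0, hc]
      omega

end Cfsg.Agent.VL
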